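import Cfsg.Agent.Lib.Tern.Data
import Cfsg.Agent.Lib.SmallSt.Tri
import Cfsg.Prelude.Def_SporadicCombinatorics

/-!
The length-12 ternary code.
-/

set_option autoImplicit false

namespace Cfsg.Agent.Lib.Tern

open Cfsg Finset
open Cfsg.Agent.Lib.SmallSt
open Cfsg.Agent.Lib.Golay (pc)

/-- index of a position -/
def ix (p : ArrayPt) : ℕ := 3 * p.1.val + p.2.val

/-- position of an index -/
def px (j : ℕ) : ArrayPt := (Fin.ofNat 4 (j / 3), (j : ZMod 3))

theorem ix_lt : ∀ p : ArrayPt, ix p < 12 := by decide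

theorem px_ix : ∀ p : ArrayPt, px (ix p) = p := by decide

theorem ix_px : ∀ j < 12, ix (px j) = j := by decide

theorem px_inj : Inj px 12 := by
  intro i hi j hj h
  rw [← ix_px i hi, ← ix_px j hj, h]

theorem card_pt : Fintype.card ArrayPt = 12 := by decide

theorem sum3 (f : ZMod 3 → ZMod 3) : ∑ r : ZMod 3, f r = f 0 + f 1 + f 2 := Fin.sum_univ_three f

theorem mem_tetra {t : Fin 4 → ZMod 3} : t ∈ tetracode ↔ ∃ a b : ZMod 3, t = ![b, a, a + b, a + 2 * b] := by
  unfold tetracode
  rw [Submodule.mem_span_pair]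
  constructor
  · rintro ⟨a, b, rfl⟩
    refine ⟨a, b, ?_⟩
    ext i
    fin_cases i <;> simp [mul_comm]
  · rintro ⟨a, b, rfl⟩
    refine ⟨a, b, ?_⟩
    ext i
    fin_cases i <;> simp [mul_comm]

theorem mem_code {x : ArrayPt → ZMod 3} : x ∈ ternaryGolayCode ↔ ∃ s : ZMod 3,
    (∀ i : Fin 4, x (i, 0) + x (i, 1) + x (i, 2) = -s) ∧
    ∀ a b : ZMod 3, x (0, b) + x (1, a) + x (2, a + b) + x (3, a + 2 * b) = s := by
  show IsTernaryGolayWord x ↔ _
  unfold IsTernaryGolayWord
  apply exists_congr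
  intro s
  apply and_congr
  · apply forall_congr'
    intro i
    rw [sum3]
  · constructor
    · intro h a b
      have := h ![b, a, a + b, a + 2 * b] (mem_tetra.2 ⟨a, b, rfl⟩)
      rw [Fin.sum_univ_four] at this
      exact this
    · intro h t ht
      obtain ⟨a, b, rfl⟩ := mem_tetra.1 ht
      rw [Fin.sum_univ_four]
      exact h a b

/-- a word from digits -/
def wd (d : ℕ → ℕ) : ArrayPt → ZMod 3 := fun p => (d (ix p) : ZMod 3)

/-- membership test on digits -/
def inT (d : ℕ → ℕ) : Bool :=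
  (List.range 3).any (fun s =>
    (List.range 4).all (fun i => (d (3 * i) + d (3 * i + 1) + d (3 * i + 2) + s) % 3 == 0) &&
    (List.range 3).all (fun a => (List.range 3).all (fun b =>
      (d b + d (3 + a) + d (6 + (a + b) % 3) + d (9 + (a + 2 * b) % 3) + 2 * s) % 3 == 0)))

theorem wd_px (d : ℕ → ℕ) {j : ℕ} (hj : j < 12) : wd d (px j) = (d j : ZMod 3) := by
  unfold wd; rw [ix_px j hj]

theorem zmod3_cases (a : ZMod 3) : ∃ n < 3, a = (n : ℕ) := ⟨a.val, ZMod.val_lt a, (ZMod.natCast_zmod_val a).symm⟩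

theorem cast0 (n : ℕ) : (n : ZMod 3) = 0 ↔ n % 3 = 0 := by
  rw [ZMod.natCast_eq_zero_iff]; omega

theorem inT_iff (d : ℕ → ℕ) : wd d ∈ ternaryGolayCode ↔ inT d = true := by
  rw [mem_code]
  unfold inT
  rw [List.any_eq_true]
  have hp : ∀ i < 4, ∀ r < 3, wd d ((Fin.ofNat 4 i : Fin 4), ((r : ℕ) : ZMod 3)) = (d (3 * i + r) : ZMod 3) := by
    intro i hi r hr
    have : px (3 * i + r) = ((Fin.ofNat 4 i : Fin 4), ((r : ℕ) : ZMod 3)) := by
      interval_cases i <;> interval_cases r <;> decide
    rw [← this, wd_px d (by omega)]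
  have hm : ∀ n : ℕ, ((n : ℕ) : ZMod 3) = ((n % 3 : ℕ) : ZMod 3) := by
    intro n; rw [ZMod.natCast_mod]
  have key : ∀ s : ℕ, ((∀ i : Fin 4, wd d (i, 0) + wd d (i, 1) + wd d (i, 2) = -((s : ℕ) : ZMod 3)) ∧
      ∀ a b : ZMod 3, wd d (0, b) + wd d (1, a) + wd d (2, a + b) + wd d (3, a + 2 * b) = ((s : ℕ) : ZMod 3)) ↔
      ((List.range 4).all (fun i => (d (3 * i) + d (3 * i + 1) + d (3 * i + 2) + s) % 3 == 0) &&
    (List.range 3).all (fun a => (List.range 3).all (fun b =>
      (d b + d (3 + a) + d (6 + (a + b) % 3) + d (9 + (a + 2 * b) % 3) + 2 * s) % 3 == 0))) = true := by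
    intro s
    rw [Bool.and_eq_true, List.all_eq_true, List.all_eq_true]
    apply and_congr
    · constructor
      · intro h i hi
        rw [List.mem_range] at hi
        rw [beq_iff_eq, ← cast0]
        have h1 := h (Fin.ofNat 4 i)
        have e0 := hp i hi 0 (by norm_num)
        have e1 := hp i hi 1 (by norm_num)
        have e2 := hp i hi 2 (by norm_num)
        simp only [Nat.cast_zero, Nat.cast_one, Nat.cast_ofNat, add_zero] at e0 e1 e2
        rw [e0, e1, e2] at h1
        push_cast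
        rw [h1]; ring
      · intro h i
        have hi := h i.val (List.mem_range.2 i.2)
        rw [beq_iff_eq, ← cast0] at hi
        have e0 := hp i.val i.2 0 (by norm_num)
        have e1 := hp i.val i.2 1 (by norm_num)
        have e2 := hp i.val i.2 2 (by norm_num)
        have ei : (Fin.ofNat 4 i.val : Fin 4) = i := by
          apply Fin.ext; exact Nat.mod_eq_of_lt i.2
        simp only [Nat.cast_zero, Nat.cast_one, Nat.cast_ofNat, add_zero, ei] at e0 e1 e2
        rw [e0, e1, e2]
        push_cast at hi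
        linear_combination hi
    · constructor
      · intro h a ha
        rw [List.all_eq_true]
        intro b hb
        rw [List.mem_range] at ha hb
        rw [beq_iff_eq, ← cast0]
        have h1 := h (a : ZMod 3) (b : ZMod 3)
        have e0 := hp 0 (by norm_num) b hb
        have e1 := hp 1 (by norm_num) a ha
        have e2 := hp 2 (by norm_num) ((a + b) % 3) (Nat.mod_lt _ (by norm_num))
        have e3 := hp 3 (by norm_num) ((a + 2 * b) % 3) (Nat.mod_lt _ (by norm_num))
        rw [← hm, Nat.cast_add] at e2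
        rw [← hm, Nat.cast_add, Nat.cast_mul] at e3
        have f0 : (Fin.ofNat 4 0 : Fin 4) = 0 := rfl
        have f1 : (Fin.ofNat 4 1 : Fin 4) = 1 := rfl
        have f2 : (Fin.ofNat 4 2 : Fin 4) = 2 := rfl
        have f3 : (Fin.ofNat 4 3 : Fin 4) = 3 := rfl
        rw [f0] at e0; rw [f1] at e1; rw [f2] at e2; rw [f3] at e3
        simp only [Nat.cast_ofNat, mul_zero, zero_add, Nat.reduceMul] at e0 e1 e2 e3
        rw [e0, e1, e2, e3] at h1
        push_cast
        push_cast at h1
        rw [h1]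
        have : (3 : ZMod 3) = 0 := rfl
        linear_combination (s : ZMod 3) * this
      · intro h a b
        obtain ⟨a, ha, rfl⟩ := zmod3_cases a
        obtain ⟨b, hb, rfl⟩ := zmod3_cases b
        have h1 := h a (List.mem_range.2 ha)
        rw [List.all_eq_true] at h1
        have h2 := h1 b (List.mem_range.2 hb)
        rw [beq_iff_eq, ← cast0] at h2
        have e0 := hp 0 (by norm_num) b hb
        have e1 := hp 1 (by norm_num) a ha
        have e2 := hp 2 (by norm_num) ((a + b) % 3) (Nat.mod_lt _ (by norm_num))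
        have e3 := hp 3 (by norm_num) ((a + 2 * b) % 3) (Nat.mod_lt _ (by norm_num))
        rw [← hm, Nat.cast_add] at e2
        rw [← hm, Nat.cast_add, Nat.cast_mul] at e3
        have f0 : (Fin.ofNat 4 0 : Fin 4) = 0 := rfl
        have f1 : (Fin.ofNat 4 1 : Fin 4) = 1 := rfl
        have f2 : (Fin.ofNat 4 2 : Fin 4) = 2 := rfl
        have f3 : (Fin.ofNat 4 3 : Fin 4) = 3 := rfl
        rw [f0] at e0; rw [f1] at e1; rw [f2] at e2; rw [f3] at e3
        simp only [Nat.cast_ofNat, mul_zero, zero_add, Nat.reduceMul] at e0 e1 e2 e3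
        rw [e0, e1, e2, e3]
        push_cast at h2 ⊢
        have : (3 : ZMod 3) = 0 := rfl
        linear_combination h2 - (s : ZMod 3) * this
  constructor
  · rintro ⟨s, hs⟩
    obtain ⟨n, hn, rfl⟩ := zmod3_cases s
    exact ⟨n, List.mem_range.2 hn, (key n).1 hs⟩
  · rintro ⟨n, _, h⟩
    exact ⟨(n : ZMod 3), (key n).2 h⟩

end Cfsg.Agent.Lib.Tern
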