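import Cfsg.Agent.Lib.Tern.Basic

/-!
Enumeration of the length-12 ternary code.
-/

set_option autoImplicit false

namespace Cfsg.Agent.Lib.Tern

open Cfsg Finset
open Cfsg.Agent.Lib.SmallSt
open Cfsg.Agent.Lib.Golay (pc)

/-- digits of a packed word -/
def dg (w j : ℕ) : ℕ := (w.testBit j).toNat + 2 * (w.testBit (12 + j)).toNat

/-- entries of the generator matrix -/
def rowd (k j : ℕ) : ℕ := (rowsT.getD k []).getD j 0

/-- base three digits -/
def dig3 (c k : ℕ) : ℕ := (c / 3 ^ k) % 3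

/-- the packed words -/
def T (c : ℕ) : ℕ := (wtab >>> (24 * c)) &&& 16777215

/-- digit sum -/
def dsum (c j : ℕ) : ℕ := dig3 c 0 * rowd 0 j + dig3 c 1 * rowd 1 j + dig3 c 2 * rowd 2 j + dig3 c 3 * rowd 3 j +
  dig3 c 4 * rowd 4 j + dig3 c 5 * rowd 5 j

/-- support mask -/
def supp (w : ℕ) : ℕ := (w ||| (w >>> 12)) &&& 4095

theorem tab_ok : (List.range 729).all (fun c => (List.range 12).all (fun j => dg (T c) j == dsum c j % 3) &&
    ((T c &&& (T c >>> 12)) &&& 4095 == 0) &&
    (dg (T c) 5 == dig3 c 0 && dg (T c) 7 == dig3 c 1 && dg (T c) 8 == dig3 c 2 && dg (T c) 9 == dig3 c 3 &&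
      dg (T c) 10 == dig3 c 4 && dg (T c) 11 == dig3 c 5)) = true := by decide +kernel

theorem rows_ok : (List.range 6).all (fun k => inT (rowd k)) = true := by decide +kernel

theorem T_dg {c : ℕ} (hc : c < 729) {j : ℕ} (hj : j < 12) : dg (T c) j = dsum c j % 3 := by
  have h := tab_ok
  rw [List.all_eq_true] at h
  have h1 := h c (List.mem_range.2 hc)
  rw [Bool.and_eq_true, Bool.and_eq_true, List.all_eq_true] at h1
  have h2 := h1.1.1 j (List.mem_range.2 hj)
  rwa [beq_iff_eq] at h2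

theorem T_ov {c : ℕ} (hc : c < 729) : (T c &&& (T c >>> 12)) &&& 4095 = 0 := by
  have h := tab_ok
  rw [List.all_eq_true] at h
  have h1 := h c (List.mem_range.2 hc)
  rw [Bool.and_eq_true, Bool.and_eq_true, beq_iff_eq] at h1
  exact h1.1.2

theorem T_free {c : ℕ} (hc : c < 729) : dg (T c) 5 = dig3 c 0 ∧ dg (T c) 7 = dig3 c 1 ∧ dg (T c) 8 = dig3 c 2 ∧
    dg (T c) 9 = dig3 c 3 ∧ dg (T c) 10 = dig3 c 4 ∧ dg (T c) 11 = dig3 c 5 := by
  have h := tab_ok
  rw [List.all_eq_true] at h
  have h1 := h c (List.mem_range.2 hc)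
  rw [Bool.and_eq_true] at h1
  have h2 := h1.2
  simp only [Bool.and_eq_true, beq_iff_eq] at h2
  obtain ⟨⟨⟨⟨⟨a, b⟩, c⟩, d⟩, e⟩, f⟩ := h2
  exact ⟨a, b, c, d, e, f⟩

theorem row_mem {k : ℕ} (hk : k < 6) : wd (rowd k) ∈ ternaryGolayCode := by
  have h := rows_ok
  rw [List.all_eq_true] at h
  exact (inT_iff _).2 (h k (List.mem_range.2 hk))

/-- the words -/
def W (c : ℕ) : ArrayPt → ZMod 3 := wd (dg (T c))

theorem W_eq {c : ℕ} (hc : c < 729) : W c = (dig3 c 0 : ZMod 3) • wd (rowd 0) + (dig3 c 1 : ZMod 3) • wd (rowd 1) +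
    (dig3 c 2 : ZMod 3) • wd (rowd 2) + (dig3 c 3 : ZMod 3) • wd (rowd 3) + (dig3 c 4 : ZMod 3) • wd (rowd 4) +
    (dig3 c 5 : ZMod 3) • wd (rowd 5) := by
  ext p
  show ((dg (T c) (ix p) : ℕ) : ZMod 3) = _
  rw [T_dg hc (ix_lt p), ZMod.natCast_mod, dsum]
  simp only [Pi.add_apply, Pi.smul_apply, smul_eq_mul, wd]
  push_cast
  rfl

theorem W_mem {c : ℕ} (hc : c < 729) : W c ∈ ternaryGolayCode := by
  rw [W_eq hc]
  have hm : ∀ k < 6, ∀ a : ZMod 3, a • wd (rowd k) ∈ ternaryGolayCode := fun k hk a =>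
    Submodule.smul_mem _ a (row_mem hk)
  exact Submodule.add_mem _ (Submodule.add_mem _ (Submodule.add_mem _ (Submodule.add_mem _ (Submodule.add_mem _
    (hm 0 (by norm_num) _) (hm 1 (by norm_num) _)) (hm 2 (by norm_num) _)) (hm 3 (by norm_num) _))
    (hm 4 (by norm_num) _)) (hm 5 (by norm_num) _)

theorem eq_zero {y : ArrayPt → ZMod 3} (hy : y ∈ ternaryGolayCode) (h5 : y (1, 2) = 0) (h7 : y (2, 1) = 0) (h8 : y (2, 2) = 0)
    (h9 : y (3, 0) = 0) (h10 : y (3, 1) = 0) (h11 : y (3, 2) = 0) : y = 0 := by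
  obtain ⟨s, h1, h2⟩ := mem_code.1 hy
  have c3 := h1 3
  rw [h9, h10, h11] at c3
  have hs : s = 0 := by simpa using c3
  have c2 := h1 2
  rw [h7, h8, hs] at c2
  have y20 : y (2, 0) = 0 := by simpa using c2
  have y2 : ∀ r : ZMod 3, y (2, r) = 0 := by intro r; fin_cases r <;> assumption
  have y3 : ∀ r : ZMod 3, y (3, r) = 0 := by intro r; fin_cases r <;> assumption
  have y0 : ∀ b, y (0, b) = 0 := by
    intro b
    have := h2 2 b
    rw [h5, y2, y3, hs] at this
    simpa using this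
  have y1 : ∀ a, y (1, a) = 0 := by
    intro a
    have := h2 a 0
    rw [y0, y2, y3, hs] at this
    simpa using this
  ext ⟨i, r⟩
  fin_cases i
  · exact y0 r
  · exact y1 r
  · exact y2 r
  · exact y3 r

theorem W_px (c : ℕ) {j : ℕ} (hj : j < 12) : W c (px j) = (dg (T c) j : ZMod 3) := wd_px _ hj

theorem W_inj {c c' : ℕ} (hc : c < 729) (hc' : c' < 729) (h : W c = W c') : c = c' := by
  obtain ⟨a0, a1, a2, a3, a4, a5⟩ := T_free hc
  obtain ⟨b0, b1, b2, b3, b4, b5⟩ := T_free hc'
  have key : ∀ j < 12, ∀ k : ℕ, dg (T c) j = dig3 c k → dg (T c') j = dig3 c' k → dig3 c k = dig3 c' k := by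
    intro j hj k e1 e2
    have h1 := congrFun h (px j)
    rw [W_px c hj, W_px c' hj, e1, e2, ZMod.natCast_eq_natCast_iff] at h1
    unfold Nat.ModEq dig3 at h1
    unfold dig3
    omega
  have k0 := key 5 (by norm_num) 0 a0 b0
  have k1 := key 7 (by norm_num) 1 a1 b1
  have k2 := key 8 (by norm_num) 2 a2 b2
  have k3 := key 9 (by norm_num) 3 a3 b3
  have k4 := key 10 (by norm_num) 4 a4 b4
  have k5 := key 11 (by norm_num) 5 a5 b5
  unfold dig3 at k0 k1 k2 k3 k4 k5
  norm_num at k0 k1 k2 k3 k4 k5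
  omega

theorem mem_iff {x : ArrayPt → ZMod 3} : x ∈ ternaryGolayCode ↔ ∃ c < 729, x = W c := by
  constructor
  · intro hx
    obtain ⟨a0, h0, e0⟩ := zmod3_cases (x (1, 2))
    obtain ⟨a1, h1, e1⟩ := zmod3_cases (x (2, 1))
    obtain ⟨a2, h2, e2⟩ := zmod3_cases (x (2, 2))
    obtain ⟨a3, h3, e3⟩ := zmod3_cases (x (3, 0))
    obtain ⟨a4, h4, e4⟩ := zmod3_cases (x (3, 1))
    obtain ⟨a5, h5, e5⟩ := zmod3_cases (x (3, 2))
    set c := a0 + 3 * a1 + 9 * a2 + 27 * a3 + 81 * a4 + 243 * a5 with hc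
    have hc729 : c < 729 := by omega
    obtain ⟨b0, b1, b2, b3, b4, b5⟩ := T_free hc729
    have d0 : dig3 c 0 = a0 := by unfold dig3; norm_num; omega
    have d1 : dig3 c 1 = a1 := by unfold dig3; norm_num; omega
    have d2 : dig3 c 2 = a2 := by unfold dig3; norm_num; omega
    have d3 : dig3 c 3 = a3 := by unfold dig3; norm_num; omega
    have d4 : dig3 c 4 = a4 := by unfold dig3; norm_num; omega
    have d5 : dig3 c 5 = a5 := by unfold dig3; norm_num; omega
    refine ⟨c, hc729, ?_⟩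
    have p5 : px 5 = (1, 2) := by decide
    have p7 : px 7 = (2, 1) := by decide
    have p8 : px 8 = (2, 2) := by decide
    have p9 : px 9 = (3, 0) := by decide
    have p10 : px 10 = (3, 1) := by decide
    have p11 : px 11 = (3, 2) := by decide
    have hz := eq_zero (Submodule.sub_mem _ hx (W_mem hc729))
      (by rw [Pi.sub_apply, ← p5, W_px c (by norm_num), b0, d0, p5, e0, sub_self])
      (by rw [Pi.sub_apply, ← p7, W_px c (by norm_num), b1, d1, p7, e1, sub_self])
      (by rw [Pi.sub_apply, ← p8, W_px c (by norm_num), b2, d2, p8, e2, sub_self])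
      (by rw [Pi.sub_apply, ← p9, W_px c (by norm_num), b3, d3, p9, e3, sub_self])
      (by rw [Pi.sub_apply, ← p10, W_px c (by norm_num), b4, d4, p10, e4, sub_self])
      (by rw [Pi.sub_apply, ← p11, W_px c (by norm_num), b5, d5, p11, e5, sub_self])
    exact sub_eq_zero.1 hz
  · rintro ⟨c, hc, rfl⟩; exact W_mem hc

theorem supp_W {c : ℕ} (hc : c < 729) : ternarySupport (W c) = im px (supp (T c)) := by
  ext p
  unfold ternarySupport
  rw [mem_filter, im, mem_image]
  have hov := T_ov hc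
  have hdg : ∀ j < 12, ((dg (T c) j : ℕ) : ZMod 3) ≠ 0 ↔ (supp (T c)).testBit j = true := by
    intro j hj
    have h1 : ((T c &&& (T c >>> 12)) &&& 4095).testBit j = false := by rw [hov]; simp
    have h2 : (4095 : ℕ).testBit j = true := by
      rw [show (4095 : ℕ) = 2 ^ 12 - 1 by norm_num, Nat.testBit_two_pow_sub_one]; simpa using hj
    rw [Nat.testBit_and, Nat.testBit_and, Nat.testBit_shiftRight, h2] at h1
    unfold supp dg
    rw [Nat.testBit_and, Nat.testBit_or, Nat.testBit_shiftRight, h2]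
    cases h3 : (T c).testBit j <;> cases h4 : (T c).testBit (12 + j) <;> simp_all
    all_goals decide
  have hpx : W c p = (dg (T c) (ix p) : ZMod 3) := rfl
  constructor
  · rintro ⟨_, h⟩
    rw [hpx, hdg _ (ix_lt p)] at h
    exact ⟨ix p, mem_bits.2 ⟨by have := ix_lt p; omega, h⟩, px_ix p⟩
  · rintro ⟨j, hj, rfl⟩
    rw [mem_bits] at hj
    have hj12 : j < 12 := by
      by_contra hcon
      have h3 : supp (T c) < 2 ^ 12 := lt_of_le_of_lt Nat.and_le_right (by norm_num)
      rw [Nat.testBit_lt_two_pow (lt_of_lt_of_le h3 (Nat.pow_le_pow_right (by norm_num) (not_lt.1 hcon)))] at hj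
      exact absurd hj.2 (by simp)
    refine ⟨mem_univ _, ?_⟩
    rw [hpx, ix_px j hj12, hdg j hj12]
    exact hj.2

theorem supp_lt (w : ℕ) : supp w < 2 ^ 12 := lt_of_le_of_lt Nat.and_le_right (by norm_num)

theorem card_supp {c : ℕ} (hc : c < 729) : (ternarySupport (W c)).card = pc (supp (T c)) := by
  rw [supp_W hc, card_im px_inj (supp_lt _)]

/-- counting words -/
theorem ncard_W {P : (ArrayPt → ZMod 3) → Prop} {f : ℕ → Bool} (hP : ∀ c < 729, P (W c) ↔ f c = true) :
    {x : ArrayPt → ZMod 3 | x ∈ ternaryGolayCode ∧ P x}.ncard = ((List.range 729).filter f).length := by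
  classical
  have e : {x : ArrayPt → ZMod 3 | x ∈ ternaryGolayCode ∧ P x} =
      ((((List.range 729).filter f).toFinset.image W : Finset (ArrayPt → ZMod 3)) : Set (ArrayPt → ZMod 3)) := by
    ext x
    rw [Finset.mem_coe, mem_image]
    constructor
    · rintro ⟨h1, h2⟩
      obtain ⟨c, hc, rfl⟩ := mem_iff.1 h1
      exact ⟨c, List.mem_toFinset.2 (List.mem_filter.2 ⟨List.mem_range.2 hc, (hP c hc).1 h2⟩), rfl⟩
    · rintro ⟨c, hc, rfl⟩
      rw [List.mem_toFinset, List.mem_filter, List.mem_range] at hc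
      exact ⟨W_mem hc.1, (hP c hc.1).2 hc.2⟩
  rw [e, Set.ncard_coe_finset, Finset.card_image_of_injOn, List.toFinset_card_of_nodup (List.nodup_range.filter f)]
  intro a ha b hb hab
  rw [Finset.mem_coe, List.mem_toFinset, List.mem_filter, List.mem_range] at ha hb
  exact W_inj ha.1 hb.1 hab

theorem wt_data : ((List.range 729).all (fun c => c == 0 || (pc (supp (T c)) == 6 || pc (supp (T c)) == 9 ||
    pc (supp (T c)) == 12))) = true ∧
    ((List.range 729).filter (fun c => pc (supp (T c)) == 6)).length = 264 ∧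
    ((List.range 729).filter (fun c => pc (supp (T c)) == 9)).length = 440 ∧
    ((List.range 729).filter (fun c => pc (supp (T c)) == 12)).length = 24 := by decide +kernel

theorem W_zero : W 0 = 0 := by
  rw [W_eq (by norm_num)]
  have : ∀ k, dig3 0 k = 0 := by intro k; unfold dig3; simp
  simp [this]

theorem weights : Nat.card ternaryGolayCode = 729 ∧
    (∀ x ∈ ternaryGolayCode, x ≠ 0 → (ternarySupport x).card = 6 ∨ (ternarySupport x).card = 9 ∨ (ternarySupport x).card = 12) ∧
    {x : ArrayPt → ZMod 3 | x ∈ ternaryGolayCode ∧ (ternarySupport x).card = 6}.ncard = 264 ∧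
    {x : ArrayPt → ZMod 3 | x ∈ ternaryGolayCode ∧ (ternarySupport x).card = 9}.ncard = 440 ∧
    {x : ArrayPt → ZMod 3 | x ∈ ternaryGolayCode ∧ (ternarySupport x).card = 12}.ncard = 24 := by
  obtain ⟨d0, d6, d9, d12⟩ := wt_data
  refine ⟨?_, ?_, ?_, ?_, ?_⟩
  · have h := ncard_W (P := fun _ => True) (f := fun _ => true) (by simp)
    have e : {x : ArrayPt → ZMod 3 | x ∈ ternaryGolayCode ∧ True} = (ternaryGolayCode : Set (ArrayPt → ZMod 3)) := by
      ext x; simp
    rw [e] at h
    have h2 : Nat.card ternaryGolayCode = (ternaryGolayCode : Set (ArrayPt → ZMod 3)).ncard := rfl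
    rw [h2, h]; simp
  · intro x hx hne
    obtain ⟨c, hc, rfl⟩ := mem_iff.1 hx
    rw [List.all_eq_true] at d0
    have h := d0 c (List.mem_range.2 hc)
    simp only [Bool.or_eq_true, beq_iff_eq] at h
    rw [card_supp hc]
    rcases h with h | (h | h) | h
    · subst h; exact absurd W_zero hne
    · exact Or.inl h
    · exact Or.inr (Or.inl h)
    · exact Or.inr (Or.inr h)
  · rw [← d6]; exact ncard_W (P := fun x => (ternarySupport x).card = 6) (fun c hc => by rw [card_supp hc, beq_iff_eq])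
  · rw [← d9]; exact ncard_W (P := fun x => (ternarySupport x).card = 9) (fun c hc => by rw [card_supp hc, beq_iff_eq])
  · rw [← d12]; exact ncard_W (P := fun x => (ternarySupport x).card = 12) (fun c hc => by rw [card_supp hc, beq_iff_eq])

theorem sq_sum (a : ZMod 3) : a * a = if a ≠ 0 then 1 else 0 := by revert a; decide

theorem self_orth {x : ArrayPt → ZMod 3} (hx : x ∈ ternaryGolayCode) : ∑ p, x p * x p = 0 := by
  have h1 : ∑ p, x p * x p = ((ternarySupport x).card : ZMod 3) := by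
    rw [Finset.sum_congr rfl (fun p _ => sq_sum (x p)), ternarySupport, Finset.card_filter]
    push_cast
    rfl
  rw [h1]
  by_cases h0 : x = 0
  · subst h0; simp [ternarySupport]
  · rcases weights.2.1 x hx h0 with h | h | h <;> rw [h] <;> rfl

theorem orth {x y : ArrayPt → ZMod 3} (hx : x ∈ ternaryGolayCode) (hy : y ∈ ternaryGolayCode) : ∑ p, x p * y p = 0 := by
  have h1 := self_orth hx
  have h2 := self_orth hy
  have h3 := self_orth (Submodule.add_mem _ hx hy)
  have h4 : ∑ p, (x + y) p * (x + y) p = ∑ p, x p * x p + 2 * ∑ p, x p * y p + ∑ p, y p * y p := by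
    rw [Finset.mul_sum, ← Finset.sum_add_distrib, ← Finset.sum_add_distrib]
    apply Finset.sum_congr rfl
    intro p _
    simp only [Pi.add_apply]; ring
  rw [h4, h1, h2, add_zero, zero_add] at h3
  have : ∀ a : ZMod 3, 2 * a = 0 → a = 0 := by decide
  exact this _ h3

theorem hex_data : (hexT.all (fun m => Nat.blt m 4096 && pc m == 6 && (List.range 729).any (fun c => supp (T c) == m)) &&
    (List.range 729).all (fun c => pc (supp (T c)) != 6 || hexT.any (fun m => m == supp (T c))) &&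
    (List.range 4096).all (fun m => pc m != 5 || ((hexT.filter (fun h => h &&& m == m)).length == 1))) = true := by
  decide +kernel

theorem hexT_nodup : hexT.Nodup ∧ hexT.length = 132 := by decide +kernel

/-- the hexads -/
def hexads : Set (Finset ArrayPt) := {h | ∃ x ∈ ternaryGolayCode, ternarySupport x = h ∧ h.card = 6}

theorem hexads_iff {h : Finset ArrayPt} : h ∈ hexads ↔ ∃ m ∈ hexT, h = im px m := by
  have hd := hex_data
  rw [Bool.and_eq_true, Bool.and_eq_true, List.all_eq_true, List.all_eq_true] at hd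
  constructor
  · rintro ⟨x, hx, rfl, h6⟩
    obtain ⟨c, hc, rfl⟩ := mem_iff.1 hx
    have h1 := hd.1.2 c (List.mem_range.2 hc)
    rw [card_supp hc] at h6
    rw [Bool.or_eq_true, List.any_eq_true] at h1
    rcases h1 with h1 | ⟨m, hm, h1⟩
    · rw [h6] at h1; simp at h1
    · rw [beq_iff_eq] at h1
      exact ⟨m, hm, by rw [supp_W hc, h1]⟩
  · rintro ⟨m, hm, rfl⟩
    have h1 := hd.1.1 m hm
    rw [Bool.and_eq_true, Bool.and_eq_true, List.any_eq_true, beq_iff_eq] at h1
    obtain ⟨⟨h2, h3⟩, c, hc, h4⟩ := h1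
    rw [List.mem_range] at hc
    rw [beq_iff_eq] at h4
    have hm12 : m < 2 ^ 12 := by simpa [Nat.blt_eq] using h2
    refine ⟨W c, W_mem hc, by rw [supp_W hc, h4], ?_⟩
    rw [card_im px_inj hm12, h3]

theorem hexT_lt {m : ℕ} (hm : m ∈ hexT) : m < 2 ^ 12 := by
  have hd := hex_data
  rw [Bool.and_eq_true, Bool.and_eq_true, List.all_eq_true, List.all_eq_true] at hd
  have h1 := hd.1.1 m hm
  rw [Bool.and_eq_true, Bool.and_eq_true] at h1
  simpa [Nat.blt_eq] using h1.1.1

theorem hexads_steiner : IsSteinerSystem 5 6 hexads := by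
  refine ⟨?_, ?_⟩
  · rintro b ⟨x, _, _, h⟩; exact h
  · intro s hs
    obtain ⟨m, hm, rfl⟩ := exists_im (v := 12) card_pt px_inj (by norm_num) s
    have hd := hex_data
    rw [Bool.and_eq_true, List.all_eq_true] at hd
    have h1 := hd.2 m (List.mem_range.2 hm)
    rw [card_im px_inj hm] at hs
    rw [hs] at h1
    simp only [bne_self_eq_false, Bool.false_or, beq_iff_eq] at h1
    obtain ⟨h, hh⟩ := List.length_eq_one_iff.1 h1
    have hmem : h ∈ hexT.filter (fun h => h &&& m == m) := by rw [hh]; simp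
    rw [List.mem_filter, beq_iff_eq] at hmem
    have hm24 : m < 2 ^ 24 := lt_of_lt_of_le hm (by norm_num)
    refine ⟨im px h, ⟨hexads_iff.2 ⟨h, hmem.1, rfl⟩, ?_⟩, ?_⟩
    · exact Finset.image_subset_image ((bits_and_self hm24).1 hmem.2)
    · rintro b ⟨hb, hsb⟩
      obtain ⟨k, hk, rfl⟩ := hexads_iff.1 hb
      have h2 : k &&& m = m := by
        apply im_inj (v := 12) (by norm_num) px_inj (lt_of_le_of_lt Nat.and_le_right hm) hm
        rw [im_and px_inj (hexT_lt hk) hm, Finset.inter_eq_right.2 hsb]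
      have h3 : k ∈ hexT.filter (fun h => h &&& m == m) := List.mem_filter.2 ⟨hk, by rw [beq_iff_eq]; exact h2⟩
      rw [hh, List.mem_singleton] at h3
      rw [h3]

theorem hexads_ncard : hexads.ncard = 132 := by
  have e : hexads = ((hexT.toFinset.image (im px) : Finset (Finset ArrayPt)) : Set (Finset ArrayPt)) := by
    ext h
    rw [hexads_iff, Finset.mem_coe, mem_image]
    constructor
    · rintro ⟨m, hm, rfl⟩; exact ⟨m, List.mem_toFinset.2 hm, rfl⟩
    · rintro ⟨m, hm, rfl⟩; exact ⟨m, List.mem_toFinset.1 hm, rfl⟩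
  rw [e, Set.ncard_coe_finset, Finset.card_image_of_injOn, List.toFinset_card_of_nodup hexT_nodup.1, hexT_nodup.2]
  intro a ha b hb hab
  rw [Finset.mem_coe, List.mem_toFinset] at ha hb
  exact im_inj (v := 12) (by norm_num) px_inj (hexT_lt ha) (hexT_lt hb) hab

end Cfsg.Agent.Lib.Tern
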