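import Cfsg.Agent.Lib.Tern.HexData
import Cfsg.Prelude.Def_SporadicCombinatorics

/-!
The hexacode.
-/

set_option autoImplicit false

namespace Cfsg.Agent.Lib.Hex

open Cfsg Finset

/-- multiplication of the labels 0, 1, 2 = ω, 3 = ω² -/
def gmul (a b : ℕ) : ℕ := if a = 0 ∨ b = 0 then 0 else ((a - 1) + (b - 1)) % 3 + 1

/-- generators -/
def vv (k i : ℕ) : ℕ := ([[2, 3, 3, 2, 3, 2], [3, 2, 2, 3, 3, 2], [3, 2, 3, 2, 2, 3]].getD k []).getD i 0

/-- digits of the words -/
def hd (n i : ℕ) : ℕ := (gmul (n % 4) (vv 0 i) ^^^ gmul (n / 4 % 4) (vv 1 i)) ^^^ gmul (n / 16 % 4) (vv 2 i)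

/-- packing -/
def pk (d : ℕ → ℕ) : ℕ := d 0 + 4 * d 1 + 16 * d 2 + 64 * d 3 + 256 * d 4 + 1024 * d 5

theorem pk_data : (List.range 64).all (fun n => (List.range 6).all (fun i => Nat.blt (hd n i) 4) && hwL.getD n 0 == pk (hd n)) = true := by
  decide +kernel

theorem hwL_nodup : hwL.Nodup := by decide +kernel

theorem hd_lt {n : ℕ} (hn : n < 64) {i : ℕ} (hi : i < 6) : hd n i < 4 := by
  have h := pk_data
  rw [List.all_eq_true] at h
  have h1 := h n (List.mem_range.2 hn)
  rw [Bool.and_eq_true, List.all_eq_true] at h1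
  simpa [Nat.blt_eq] using h1.1 i (List.mem_range.2 hi)

theorem hw_eq {n : ℕ} (hn : n < 64) : hwL.getD n 0 = pk (hd n) := by
  have h := pk_data
  rw [List.all_eq_true] at h
  have h1 := h n (List.mem_range.2 hn)
  rw [Bool.and_eq_true, beq_iff_eq] at h1
  exact h1.2

theorem hw_len : hwL.length = 64 := by decide +kernel

theorem pk_inj {d d' : ℕ → ℕ} (h1 : ∀ i < 6, d i < 4) (h2 : ∀ i < 6, d' i < 4) (h : pk d = pk d') : ∀ i < 6, d i = d' i := by
  unfold pk at h
  have a0 := h1 0 (by norm_num); have a1 := h1 1 (by norm_num); have a2 := h1 2 (by norm_num)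
  have a3 := h1 3 (by norm_num); have a4 := h1 4 (by norm_num); have a5 := h1 5 (by norm_num)
  have b0 := h2 0 (by norm_num); have b1 := h2 1 (by norm_num); have b2 := h2 2 (by norm_num)
  have b3 := h2 3 (by norm_num); have b4 := h2 4 (by norm_num); have b5 := h2 5 (by norm_num)
  intro i hi
  interval_cases i <;> omega

section

variable {F : Type*} [Field F] [Fintype F] [DecidableEq F] (hF : Fintype.card F = 4) {ω : F} (hω : ω ^ 2 + ω + 1 = 0)

/-- the labels as field elements -/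
def enc (ω : F) (n : ℕ) : F := if n = 0 then 0 else if n = 1 then 1 else if n = 2 then ω else ω + 1

include hF in
theorem two_eq : (2 : F) = 0 := by
  have h := FiniteField.card F (ringChar F)
  obtain ⟨n, hp, hn⟩ := h
  rw [hF] at hn
  have h2 : ringChar F = 2 := by
    have h3 : ringChar F ∣ 2 ^ 2 := by
      rw [show (2 : ℕ) ^ 2 = 4 by norm_num, hn]
      exact dvd_pow_self _ n.2.ne'
    exact (Nat.prime_dvd_prime_iff_eq hp Nat.prime_two).1 (hp.dvd_of_dvd_pow h3)
  have h4 : ((ringChar F : ℕ) : F) = 0 := ringChar.spec F _ |>.2 dvd_rfl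
  rw [h2] at h4
  exact_mod_cast h4

theorem e0 : enc ω 0 = 0 := by simp [enc]
theorem e1 : enc ω 1 = 1 := by simp [enc]
theorem e2 : enc ω 2 = ω := by simp [enc]
theorem e3 : enc ω 3 = ω + 1 := by simp [enc]

include hF hω in
theorem enc_inj : ∀ a < 4, ∀ b < 4, enc ω a = enc ω b → a = b := by
  have h2 := two_eq hF
  have w0 : ω ≠ 0 := by
    rintro rfl; simp at hω
  have w1 : ω ≠ 1 := by
    rintro rfl
    have : (1 : F) = 0 := by linear_combination hω - h2
    exact one_ne_zero this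
  have w2 : ω + 1 ≠ 0 := by
    intro h
    apply w1
    linear_combination h - h2
  have w3 : ω + 1 ≠ 1 := by
    intro h; apply w0; linear_combination h
  have w4 : ω + 1 ≠ ω := by
    intro h; exact one_ne_zero (by linear_combination h : (1 : F) = 0)
  intro a ha b hb h
  interval_cases a <;> interval_cases b <;> simp only [e0, e1, e2, e3] at h <;>
    first
    | rfl
    | exact absurd h zero_ne_one
    | exact absurd h one_ne_zero
    | exact absurd h w0
    | exact absurd h.symm w0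
    | exact absurd h w1
    | exact absurd h.symm w1
    | exact absurd h w2
    | exact absurd h.symm w2
    | exact absurd h w3
    | exact absurd h.symm w3
    | exact absurd h w4
    | exact absurd h.symm w4

include hF hω in
theorem enc_surj (x : F) : ∃ a < 4, enc ω a = x := by
  have h1 : (range 4).image (enc ω) = Finset.univ := by
    apply Finset.eq_univ_of_card
    rw [Finset.card_image_of_injOn, Finset.card_range, hF]
    intro i hi j hj hij
    exact enc_inj hF hω i (by simpa using hi) j (by simpa using hj) hij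
  have h2 : x ∈ (range 4).image (enc ω) := by rw [h1]; exact mem_univ x
  rw [mem_image] at h2
  obtain ⟨i, hi, he⟩ := h2
  exact ⟨i, mem_range.1 hi, he⟩

include hF in
theorem enc_xor : ∀ a < 4, ∀ b < 4, enc ω (a ^^^ b) = enc ω a + enc ω b := by
  have h2 := two_eq hF
  intro a ha b hb
  interval_cases a <;> interval_cases b <;> simp only [Nat.reduceXor, e0, e1, e2, e3] <;>
    first
    | ring1
    | linear_combination (-1 : F) * h2
    | linear_combination (-ω) * h2
    | linear_combination (-ω - 1) * h2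

include hF hω in
theorem enc_mul : ∀ a < 4, ∀ b < 4, enc ω (gmul a b) = enc ω a * enc ω b := by
  have h2 := two_eq hF
  have hg : ∀ a < 4, ∀ b < 4, gmul a b = [0, 0, 0, 0, 0, 1, 2, 3, 0, 2, 3, 1, 0, 3, 1, 2].getD (4 * a + b) 0 := by decide
  intro a ha b hb
  rw [hg a ha b hb]
  interval_cases a <;> interval_cases b <;>
    simp only [Nat.reduceMul, Nat.reduceAdd, List.getD_cons_zero, List.getD_cons_succ, e0, e1, e2, e3] <;>
    first
    | ring1
    | linear_combination -hω + (ω + 1) * h2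
    | linear_combination -hω + h2
    | linear_combination -hω

theorem gmul_lt {a b : ℕ} : gmul a b < 4 := by unfold gmul; split_ifs <;> omega

theorem xor_lt {a b : ℕ} (ha : a < 4) (hb : b < 4) : a ^^^ b < 4 := Nat.xor_lt_two_pow (n := 2) ha hb

/-- the words -/
def Wd (ω : F) (n : ℕ) : Fin 6 → F := fun i => enc ω (hd n i)

include hF hω in
theorem Wd_eq (n : ℕ) : Wd ω n = enc ω (n % 4) • ![ω, ω ^ 2, ω ^ 2, ω, ω ^ 2, ω] +
    enc ω (n / 4 % 4) • ![ω ^ 2, ω, ω, ω ^ 2, ω ^ 2, ω] + enc ω (n / 16 % 4) • ![ω ^ 2, ω, ω ^ 2, ω, ω, ω ^ 2] := by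
  have h2 := two_eq hF
  have hw2 : enc ω 3 = ω ^ 2 := by rw [e3]; linear_combination -hω + (ω + 1) * h2
  have hv0 : ∀ i : Fin 6, enc ω (vv 0 i) = ![ω, ω ^ 2, ω ^ 2, ω, ω ^ 2, ω] i := by
    intro i; fin_cases i <;> simp [vv, hw2, e2]
  have hv1 : ∀ i : Fin 6, enc ω (vv 1 i) = ![ω ^ 2, ω, ω, ω ^ 2, ω ^ 2, ω] i := by
    intro i; fin_cases i <;> simp [vv, hw2, e2]
  have hv2 : ∀ i : Fin 6, enc ω (vv 2 i) = ![ω ^ 2, ω, ω ^ 2, ω, ω, ω ^ 2] i := by
    intro i; fin_cases i <;> simp [vv, hw2, e2]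
  have hlt : ∀ k < 3, ∀ i : Fin 6, vv k i < 4 := by decide
  ext i
  simp only [Wd, hd, Pi.add_apply, Pi.smul_apply, smul_eq_mul]
  rw [enc_xor hF _ (xor_lt gmul_lt gmul_lt) _ gmul_lt, enc_xor hF _ gmul_lt _ gmul_lt,
    enc_mul hF hω _ (Nat.mod_lt _ (by norm_num)) _ (hlt 0 (by norm_num) i),
    enc_mul hF hω _ (Nat.mod_lt _ (by norm_num)) _ (hlt 1 (by norm_num) i),
    enc_mul hF hω _ (Nat.mod_lt _ (by norm_num)) _ (hlt 2 (by norm_num) i), hv0, hv1, hv2]

include hF hω in
theorem mem_iff {x : Fin 6 → F} : x ∈ hexacode F ω ↔ ∃ n < 64, x = Wd ω n := by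
  unfold hexacode
  rw [Submodule.mem_span_triple]
  constructor
  · rintro ⟨a, b, c, rfl⟩
    obtain ⟨a, ha, rfl⟩ := enc_surj hF hω a
    obtain ⟨b, hb, rfl⟩ := enc_surj hF hω b
    obtain ⟨c, hc, rfl⟩ := enc_surj hF hω c
    refine ⟨a + 4 * b + 16 * c, by omega, ?_⟩
    rw [Wd_eq hF hω, show (a + 4 * b + 16 * c) % 4 = a by omega, show (a + 4 * b + 16 * c) / 4 % 4 = b by omega,
      show (a + 4 * b + 16 * c) / 16 % 4 = c by omega]
  · rintro ⟨n, hn, rfl⟩
    rw [Wd_eq hF hω]
    exact ⟨_, _, _, rfl⟩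

include hF hω in
theorem Wd_inj {n m : ℕ} (hn : n < 64) (hm : m < 64) (h : Wd ω n = Wd ω m) : n = m := by
  have h1 : pk (hd n) = pk (hd m) := by
    have h2 : ∀ i < 6, hd n i = hd m i := by
      intro i hi
      exact enc_inj hF hω _ (hd_lt hn hi) _ (hd_lt hm hi) (congrFun h ⟨i, hi⟩)
    unfold pk
    rw [h2 0 (by norm_num), h2 1 (by norm_num), h2 2 (by norm_num), h2 3 (by norm_num), h2 4 (by norm_num), h2 5 (by norm_num)]
  rw [← hw_eq hn, ← hw_eq hm, List.getD_eq_getElem _ _ (by rw [hw_len]; exact hn),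
    List.getD_eq_getElem _ _ (by rw [hw_len]; exact hm)] at h1
  exact (List.Nodup.getElem_inj_iff hwL_nodup).1 h1

/-- weight -/
def wt (n : ℕ) : ℕ := (List.range 6).countP (fun i => hd n i != 0)

include hF hω in
theorem card_wt {n : ℕ} (hn : n < 64) : (Finset.univ.filter fun i => Wd ω n i ≠ 0).card = wt n := by
  have h0 : ∀ i : Fin 6, Wd ω n i ≠ 0 ↔ hd n i ≠ 0 := by
    intro i
    unfold Wd
    rw [not_iff_not]
    constructor
    · intro h
      exact enc_inj hF hω _ (hd_lt hn i.2) 0 (by norm_num) (by rw [h, e0])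
    · intro h; rw [h, e0]
  have h1 : (Finset.univ.filter fun i => Wd ω n i ≠ 0) = Finset.univ.filter fun i : Fin 6 => hd n i ≠ 0 := by
    ext i; rw [mem_filter, mem_filter, h0]
  have h2 : ∀ n < 64, (Finset.univ.filter fun i : Fin 6 => hd n i ≠ 0).card = wt n := by decide +kernel
  rw [h1, h2 n hn]

include hF hω in
/-- counting words -/
theorem ncard_W {P : (Fin 6 → F) → Prop} {f : ℕ → Bool} (hP : ∀ c < 64, P (Wd ω c) ↔ f c = true) :
    {x : Fin 6 → F | x ∈ hexacode F ω ∧ P x}.ncard = ((List.range 64).filter f).length := by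
  classical
  have e : {x : Fin 6 → F | x ∈ hexacode F ω ∧ P x} =
      ((((List.range 64).filter f).toFinset.image (Wd ω) : Finset (Fin 6 → F)) : Set (Fin 6 → F)) := by
    ext x
    rw [Finset.mem_coe, mem_image]
    constructor
    · rintro ⟨h1, h2⟩
      obtain ⟨c, hc, rfl⟩ := (mem_iff hF hω).1 h1
      exact ⟨c, List.mem_toFinset.2 (List.mem_filter.2 ⟨List.mem_range.2 hc, (hP c hc).1 h2⟩), rfl⟩
    · rintro ⟨c, hc, rfl⟩
      rw [List.mem_toFinset, List.mem_filter, List.mem_range] at hc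
      exact ⟨(mem_iff hF hω).2 ⟨c, hc.1, rfl⟩, (hP c hc.1).2 hc.2⟩
  rw [e, Set.ncard_coe_finset, Finset.card_image_of_injOn, List.toFinset_card_of_nodup (List.nodup_range.filter f)]
  intro a ha b hb hab
  rw [Finset.mem_coe, List.mem_toFinset, List.mem_filter, List.mem_range] at ha hb
  exact Wd_inj hF hω ha.1 hb.1 hab

theorem wt_data : ((List.range 64).all (fun c => c == 0 || (wt c == 4 || wt c == 6))) = true ∧
    ((List.range 64).filter (fun c => wt c == 4)).length = 45 ∧
    ((List.range 64).filter (fun c => wt c == 6)).length = 18 := by decide +kernel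

include hF hω in
theorem W_zero : Wd ω 0 = 0 := by
  rw [Wd_eq hF hω]; simp [e0]

include hF hω in
theorem weights : Nat.card ↥(hexacode F ω) = 64 ∧
    (∀ x ∈ hexacode F ω, x ≠ 0 → (Finset.univ.filter fun i => x i ≠ 0).card = 4 ∨ (Finset.univ.filter fun i => x i ≠ 0).card = 6) ∧
    {x : Fin 6 → F | x ∈ hexacode F ω ∧ (Finset.univ.filter fun i => x i ≠ 0).card = 4}.ncard = 45 ∧
    {x : Fin 6 → F | x ∈ hexacode F ω ∧ (Finset.univ.filter fun i => x i ≠ 0).card = 6}.ncard = 18 := by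
  obtain ⟨d0, d4, d6⟩ := wt_data
  refine ⟨?_, ?_, ?_, ?_⟩
  · have h := ncard_W hF hω (P := fun _ => True) (f := fun _ => true) (by simp)
    have e : {x : Fin 6 → F | x ∈ hexacode F ω ∧ True} = (hexacode F ω : Set (Fin 6 → F)) := by
      ext x; simp
    rw [e] at h
    have h2 : Nat.card (hexacode F ω) = (hexacode F ω : Set (Fin 6 → F)).ncard := rfl
    rw [h2, h]; simp
  · intro x hx hne
    obtain ⟨c, hc, rfl⟩ := (mem_iff hF hω).1 hx
    rw [List.all_eq_true] at d0
    have h := d0 c (List.mem_range.2 hc)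
    simp only [Bool.or_eq_true, beq_iff_eq] at h
    rw [card_wt hF hω hc]
    rcases h with h | h | h
    · subst h; exact absurd (W_zero hF hω) hne
    · exact Or.inl h
    · exact Or.inr h
  · rw [← d4]
    exact ncard_W hF hω (P := fun x => (Finset.univ.filter fun i => x i ≠ 0).card = 4)
      (fun c hc => by rw [card_wt hF hω hc, beq_iff_eq])
  · rw [← d6]
    exact ncard_W hF hω (P := fun x => (Finset.univ.filter fun i => x i ≠ 0).card = 6)
      (fun c hc => by rw [card_wt hF hω hc, beq_iff_eq])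

end

end Cfsg.Agent.Lib.Hex
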