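import Mathlib

/-!
Tables for the hexacode (generated).
-/

set_option autoImplicit false

namespace Cfsg.Agent.Lib.Hex

/-- packed words of the hexacode -/
def hwL : List ℕ := [0, 3006, 3543, 1641, 3051, 85, 1596, 3458, 3453, 1731, 170, 2836, 1686, 3368, 2881, 255, 3771, 1285, 876, 2258, 1360, 3822, 2183, 825, 966, 2168, 3601, 1455, 2093, 915, 1530, 3652, 2013, 3171, 2570, 436, 3126, 1928, 481, 2655, 2720, 286, 1911, 3273, 331, 2805, 3228, 1826, 2406, 728, 1201, 3855, 653, 2355, 3930, 1252, 1051, 4005, 2508, 626, 4080, 1102, 551, 2457]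

/-- transversal elements -/
def hmonT : List (List (List ℕ × List ℕ)) :=
  [[([0, 1, 2, 3, 4, 5], [1, 1, 1, 1, 1, 1]),
    ([1, 0, 2, 3, 5, 4], [1, 1, 1, 1, 1, 1]),
    ([1, 2, 0, 3, 4, 5], [1, 1, 1, 1, 2, 3]),
    ([1, 2, 3, 0, 5, 4], [1, 1, 1, 1, 3, 2]),
    ([1, 2, 3, 4, 0, 5], [1, 2, 3, 1, 3, 2]),
    ([1, 2, 3, 5, 4, 0], [1, 3, 2, 1, 3, 2])],
   [([0, 1, 2, 3, 4, 5], [1, 1, 1, 1, 1, 1]),
    ([0, 2, 1, 3, 5, 4], [1, 1, 1, 1, 2, 3]),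
    ([0, 2, 3, 1, 4, 5], [1, 1, 1, 1, 3, 2]),
    ([0, 2, 3, 5, 1, 4], [1, 2, 3, 1, 3, 2]),
    ([0, 2, 3, 4, 5, 1], [1, 3, 2, 1, 3, 2])],
   [([0, 1, 2, 3, 4, 5], [1, 1, 1, 1, 1, 1]),
    ([0, 1, 3, 2, 5, 4], [1, 1, 1, 1, 1, 1]),
    ([0, 1, 3, 4, 2, 5], [1, 2, 3, 3, 3, 3]),
    ([0, 1, 3, 5, 4, 2], [1, 3, 2, 2, 2, 2])],
   [([0, 1, 2, 3, 4, 5], [1, 1, 1, 1, 1, 1]),
    ([0, 1, 2, 5, 3, 4], [1, 2, 3, 3, 3, 3]),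
    ([0, 1, 2, 4, 5, 3], [1, 3, 2, 2, 2, 2])]]

end Cfsg.Agent.Lib.Hex
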