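import Cfsg.Agent.Lib.Tern.Hex

/-!
The monomial group of the hexacode.
-/

set_option autoImplicit false

namespace Cfsg.Agent.Lib.Hex

open Cfsg Finset

variable {F : Type*} [Field F] [Fintype F] [DecidableEq F] (hF : Fintype.card F = 4) {ω : F} (hω : ω ^ 2 + ω + 1 = 0)

/-- preservation of the code -/
def Pres (ω : F) (σ : Equiv.Perm (Fin 6)) (c : Fin 6 → Fˣ) : Prop := ∀ x ∈ hexacode F ω, monomialMap σ c x ∈ hexacode F ω

theorem mono_apply (σ : Equiv.Perm (Fin 6)) (c : Fin 6 → Fˣ) (x : Fin 6 → F) (i : Fin 6) :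
    monomialMap σ c x i = (c i : F) * x (σ.symm i) := rfl

/-- membership test for a monomial map -/
def tst (ri sg : ℕ → ℕ) : Bool := [1, 4, 16].all (fun n => hwL.any (fun w => w == pk (fun i => gmul (sg i) (hd n (ri i)))))

theorem mem_hwL {w : ℕ} : w ∈ hwL ↔ ∃ n < 64, w = pk (hd n) := by
  constructor
  · intro h
    obtain ⟨n, hn, e⟩ := List.getElem_of_mem h
    have hn' : n < 64 := by rw [← hw_len]; exact hn
    refine ⟨n, hn', ?_⟩
    rw [← hw_eq hn', List.getD_eq_getElem _ _ hn, e]
  · rintro ⟨n, hn, rfl⟩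
    rw [← hw_eq hn, List.getD_eq_getElem _ _ (by rw [hw_len]; exact hn)]
    exact List.getElem_mem _

include hF hω in
theorem Wd_lin (n : ℕ) : Wd ω n = enc ω (n % 4) • Wd ω 1 + enc ω (n / 4 % 4) • Wd ω 4 + enc ω (n / 16 % 4) • Wd ω 16 := by
  rw [Wd_eq hF hω n, Wd_eq hF hω 1, Wd_eq hF hω 4, Wd_eq hF hω 16]
  simp [e0, e1]

theorem mono_lin (σ : Equiv.Perm (Fin 6)) (c : Fin 6 → Fˣ) (a b d : F) (x y z : Fin 6 → F) :
    monomialMap σ c (a • x + b • y + d • z) = a • monomialMap σ c x + b • monomialMap σ c y + d • monomialMap σ c z := by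
  ext i
  simp only [mono_apply, Pi.add_apply, Pi.smul_apply, smul_eq_mul]
  ring

include hF hω in
theorem pres_of_gens {σ : Equiv.Perm (Fin 6)} {c : Fin 6 → Fˣ} (h1 : monomialMap σ c (Wd ω 1) ∈ hexacode F ω)
    (h2 : monomialMap σ c (Wd ω 4) ∈ hexacode F ω) (h3 : monomialMap σ c (Wd ω 16) ∈ hexacode F ω) : Pres ω σ c := by
  intro x hx
  obtain ⟨n, hn, rfl⟩ := (mem_iff hF hω).1 hx
  rw [Wd_lin hF hω n, mono_lin]
  exact Submodule.add_mem _ (Submodule.add_mem _ (Submodule.smul_mem _ _ h1) (Submodule.smul_mem _ _ h2))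
    (Submodule.smul_mem _ _ h3)

include hF hω in
theorem tst_iff {σ : Equiv.Perm (Fin 6)} {c : Fin 6 → Fˣ} {ri sg : ℕ → ℕ} (hr : ∀ i : Fin 6, (σ.symm i).val = ri i)
    (hs : ∀ i : Fin 6, (c i : F) = enc ω (sg i)) (hsl : ∀ i < 6, sg i < 4) : Pres ω σ c ↔ tst ri sg = true := by
  have hril : ∀ i < 6, ri i < 6 := by
    intro i hi
    have := hr ⟨i, hi⟩
    rw [← this]; exact (σ.symm _).2
  have key : ∀ n < 64, monomialMap σ c (Wd ω n) ∈ hexacode F ω ↔ pk (fun i => gmul (sg i) (hd n (ri i))) ∈ hwL := by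
    intro n hn
    have e : ∀ i : Fin 6, monomialMap σ c (Wd ω n) i = enc ω (gmul (sg i) (hd n (ri i))) := by
      intro i
      rw [mono_apply, enc_mul hF hω _ (hsl i i.2) _ (hd_lt hn (hril i i.2)), hs]
      unfold Wd
      rw [hr]
    rw [mem_iff hF hω, mem_hwL]
    constructor
    · rintro ⟨m, hm, he⟩
      refine ⟨m, hm, ?_⟩
      have h1 : ∀ i < 6, gmul (sg i) (hd n (ri i)) = hd m i := by
        intro i hi
        apply enc_inj hF hω _ gmul_lt _ (hd_lt hm hi)
        rw [← e ⟨i, hi⟩, he]; rfl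
      unfold pk
      beta_reduce
      rw [h1 0 (by norm_num), h1 1 (by norm_num), h1 2 (by norm_num), h1 3 (by norm_num), h1 4 (by norm_num), h1 5 (by norm_num)]
    · rintro ⟨m, hm, he⟩
      refine ⟨m, hm, ?_⟩
      have h1 := pk_inj (fun i _ => gmul_lt) (fun i hi => hd_lt hm hi) he
      ext i
      rw [e, h1 i i.2]; rfl
  unfold tst
  rw [List.all_eq_true]
  constructor
  · intro h n hn
    have hn' : n < 64 := by
      simp only [List.mem_cons, List.not_mem_nil, or_false] at hn
      rcases hn with rfl | rfl | rfl <;> norm_num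
    rw [List.any_eq_true]
    exact ⟨_, (key n hn').1 (h _ ((mem_iff hF hω).2 ⟨n, hn', rfl⟩)), by simp⟩
  · intro h
    have h' : ∀ n ∈ [1, 4, 16], n < 64 → monomialMap σ c (Wd ω n) ∈ hexacode F ω := by
      intro n hn hn64
      have h1 := h n hn
      rw [List.any_eq_true] at h1
      obtain ⟨w, hw, h2⟩ := h1
      rw [beq_iff_eq] at h2
      rw [key n hn64, ← h2]; exact hw
    exact pres_of_gens hF hω (h' 1 (by simp) (by norm_num)) (h' 4 (by simp) (by norm_num)) (h' 16 (by simp) (by norm_num))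

/-- the sign pattern with a given number -/
def sgn (k i : ℕ) : ℕ := k / 3 ^ i % 3 + 1

theorem diag_data : (List.range 729).all (fun k => !(tst (fun i => i) (sgn k)) ||
    (List.range 6).all (fun i => sgn k i == sgn k 0)) = true := by decide +kernel

/-- the transposition of the last two positions -/
def tr (i : ℕ) : ℕ := if i = 4 then 5 else if i = 5 then 4 else i

theorem tr_data : (List.range 729).all (fun k => !(tst tr (sgn k))) = true := by decide +kernel

include hF hω in
theorem exists_sgn (c : Fin 6 → Fˣ) : ∃ k < 729, ∀ i : Fin 6, (c i : F) = enc ω (sgn k i) := by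
  have h : ∀ i : Fin 6, ∃ a < 3, enc ω (a + 1) = (c i : F) := by
    intro i
    obtain ⟨a, ha, he⟩ := enc_surj hF hω (c i : F)
    have : a ≠ 0 := by
      rintro rfl
      rw [e0] at he
      exact (c i).ne_zero he.symm
    exact ⟨a - 1, by omega, by rw [Nat.sub_add_cancel (by omega)]; exact he⟩
  choose a ha he using h
  have a0 := ha 0; have a1 := ha 1; have a2 := ha 2; have a3 := ha 3; have a4 := ha 4; have a5 := ha 5
  refine ⟨a 0 + 3 * a 1 + 9 * a 2 + 27 * a 3 + 81 * a 4 + 243 * a 5, by omega, ?_⟩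
  intro i
  rw [← he i]
  congr 1
  unfold sgn
  fin_cases i <;> simp <;> omega

theorem sgn_lt (k i : ℕ) : sgn k i < 4 := by unfold sgn; omega

include hF hω in
theorem sign_const {c : Fin 6 → Fˣ} (h : Pres ω 1 c) : ∀ i j, c i = c j := by
  obtain ⟨k, hk, hc⟩ := exists_sgn hF hω c
  have h1 := (tst_iff hF hω (σ := 1) (ri := fun i => i) (sg := sgn k) (fun _ => rfl) hc (fun i _ => sgn_lt k i)).1 h
  have h2 := diag_data
  rw [List.all_eq_true] at h2
  have h3 := h2 k (List.mem_range.2 hk)
  rw [h1, Bool.not_true, Bool.false_or, List.all_eq_true] at h3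
  have h4 : ∀ i, c i = c 0 := by
    intro i
    apply Units.ext
    have := h3 i (List.mem_range.2 i.2)
    rw [beq_iff_eq] at this
    rw [hc, hc, this]; rfl
  intro i j
  rw [h4 i, h4 j]

theorem mono_comp (σ τ : Equiv.Perm (Fin 6)) (c d : Fin 6 → Fˣ) (x : Fin 6 → F) :
    monomialMap σ c (monomialMap τ d x) = monomialMap (σ * τ) (fun i => c i * d (σ.symm i)) x := by
  ext i
  rw [mono_apply, mono_apply, mono_apply, Units.val_mul, mul_assoc]
  rfl

theorem Pres.comp {σ τ : Equiv.Perm (Fin 6)} {c d : Fin 6 → Fˣ} (h1 : Pres ω σ c) (h2 : Pres ω τ d) :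
    Pres ω (σ * τ) (fun i => c i * d (σ.symm i)) := by
  intro x hx
  rw [← mono_comp]
  exact h1 _ (h2 x hx)

theorem pres_one : Pres ω 1 (1 : Fin 6 → Fˣ) := by
  intro x hx
  have : monomialMap 1 (1 : Fin 6 → Fˣ) x = x := by
    ext i
    rw [mono_apply]
    show ((1 : Fˣ) : F) * x i = x i
    rw [Units.val_one, one_mul]
  rw [this]; exact hx

/-- the group of permutation parts -/
def permPart (ω : F) : Subgroup (Equiv.Perm (Fin 6)) where
  carrier := {σ | ∃ c, Pres ω σ c}
  one_mem' := ⟨1, pres_one⟩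
  mul_mem' := by
    rintro σ τ ⟨c, hc⟩ ⟨d, hd⟩
    exact ⟨_, hc.comp hd⟩
  inv_mem' := by
    rintro σ ⟨c, hc⟩
    have h : ∀ n : ℕ, ∃ d, Pres ω (σ ^ n) d := by
      intro n
      induction n with
      | zero => exact ⟨1, by rw [pow_zero]; exact pres_one⟩
      | succ n ih =>
        obtain ⟨d, hd⟩ := ih
        exact ⟨_, by rw [pow_succ]; exact hd.comp hc⟩
    obtain ⟨d, hd⟩ := h (orderOf σ - 1)
    refine ⟨d, ?_⟩
    have h1 : σ ^ (orderOf σ - 1) = σ⁻¹ := by
      rw [eq_inv_iff_mul_eq_one, ← pow_succ, Nat.sub_add_cancel (orderOf_pos σ), pow_orderOf_eq_one]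
    rw [← h1]; exact hd

/-- check of one monomial element -/
def monOK (e : List ℕ × List ℕ) : Bool :=
  (List.range 6).all (fun i => Nat.blt (e.1.getD i 0) 6 && (Nat.blt 0 (e.2.getD i 0) && Nat.blt (e.2.getD i 0) 4) &&
    (List.range i).all (fun j => e.1.getD j 0 != e.1.getD i 0)) && tst (fun i => e.1.getD i 0) (fun i => e.2.getD i 0)

/-- points -/
def px (i : ℕ) : Fin 6 := Fin.ofNat 6 i

theorem px_val {i : ℕ} (hi : i < 6) : (px i).val = i := Nat.mod_eq_of_lt hi

theorem px_self (i : Fin 6) : px i.val = i := Fin.ext (px_val i.2)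

include hF hω in
theorem exists_mon {e : List ℕ × List ℕ} (he : monOK e = true) : ∃ σ ∈ permPart ω, ∀ i < 6, σ (px (e.1.getD i 0)) = px i := by
  unfold monOK at he
  rw [Bool.and_eq_true, List.all_eq_true] at he
  obtain ⟨h1, h2⟩ := he
  have hr : ∀ i < 6, e.1.getD i 0 < 6 := by
    intro i hi
    have := h1 i (List.mem_range.2 hi)
    rw [Bool.and_eq_true, Bool.and_eq_true] at this
    simpa [Nat.blt_eq] using this.1.1
  have hs : ∀ i < 6, 0 < e.2.getD i 0 ∧ e.2.getD i 0 < 4 := by
    intro i hi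
    have := h1 i (List.mem_range.2 hi)
    rw [Bool.and_eq_true, Bool.and_eq_true, Bool.and_eq_true] at this
    simpa [Nat.blt_eq] using this.1.2
  have hinj : ∀ i < 6, ∀ j < i, e.1.getD j 0 ≠ e.1.getD i 0 := by
    intro i hi j hj
    have := h1 i (List.mem_range.2 hi)
    rw [Bool.and_eq_true, List.all_eq_true] at this
    have := this.2 j (List.mem_range.2 hj)
    simpa using this
  have hf : Function.Injective (fun p : Fin 6 => px (e.1.getD p.val 0)) := by
    intro p q hpq
    have h3 := congrArg Fin.val hpq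
    simp only at h3
    rw [px_val (hr _ p.2), px_val (hr _ q.2)] at h3
    apply Fin.ext
    rcases Nat.lt_trichotomy p.val q.val with h | h | h
    · exact absurd h3 (hinj _ q.2 _ h)
    · exact h
    · exact absurd h3.symm (hinj _ p.2 _ h)
  set τ : Equiv.Perm (Fin 6) := Equiv.ofBijective _ (Finite.injective_iff_bijective.1 hf) with hτ
  have hτ1 : ∀ p, τ p = px (e.1.getD p.val 0) := fun _ => rfl
  have hne : ∀ i : Fin 6, enc ω (e.2.getD i.val 0) ≠ 0 := by
    intro i h
    have := enc_inj hF hω _ (hs i i.2).2 0 (by norm_num) (by rw [h, e0])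
    have := (hs i i.2).1
    omega
  refine ⟨τ.symm, ⟨fun i => Units.mk0 _ (hne i), ?_⟩, ?_⟩
  · rw [tst_iff hF hω (ri := fun i => e.1.getD i 0) (sg := fun i => e.2.getD i 0)]
    · exact h2
    · intro i
      rw [Equiv.symm_symm, hτ1, px_val (hr _ i.2)]
    · intro i; rfl
    · intro i hi; exact (hs i hi).2
  · intro i hi
    have : px (e.1.getD i 0) = τ (px i) := by rw [hτ1, px_val hi]
    rw [this, Equiv.symm_apply_apply]

/-- check of the transversals -/
def levOK (L : ℕ) (l : List (List ℕ × List ℕ)) : Bool :=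
  l.all monOK && (List.range (6 - L)).all (fun j =>
    (l.getD j ([], [])).1.getD (L + j) 0 == L && (List.range L).all (fun i => (l.getD j ([], [])).1.getD i 0 == i) && Nat.blt j l.length)

theorem mon_data : (List.range 4).all (fun L => levOK L (hmonT.getD L [])) = true := by decide +kernel

include hF hω in
theorem level {L : ℕ} (hL : L < 4) {j : ℕ} (hj : j < 6) (hLj : L ≤ j) : ∃ σ ∈ permPart ω, (∀ i < L, σ (px i) = px i) ∧
    σ (px L) = px j := by
  have h := mon_data
  rw [List.all_eq_true] at h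
  have h1 := h L (List.mem_range.2 hL)
  unfold levOK at h1
  rw [Bool.and_eq_true, List.all_eq_true, List.all_eq_true] at h1
  obtain ⟨h2, h3⟩ := h1
  have h4 := h3 (j - L) (List.mem_range.2 (by omega))
  rw [Bool.and_eq_true, Bool.and_eq_true, List.all_eq_true, beq_iff_eq] at h4
  obtain ⟨⟨h5, h6⟩, h7⟩ := h4
  have h7' : j - L < (hmonT.getD L []).length := by simpa [Nat.blt_eq] using h7
  have hmem : (hmonT.getD L []).getD (j - L) ([], []) ∈ hmonT.getD L [] := by
    rw [List.getD_eq_getElem _ _ h7']; exact List.getElem_mem h7'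
  obtain ⟨σ, hσ, hσ2⟩ := exists_mon hF hω (h2 _ hmem)
  refine ⟨σ, hσ, ?_, ?_⟩
  · intro i hi
    have := hσ2 i (by omega)
    have e := h6 i (List.mem_range.2 hi)
    rw [beq_iff_eq] at e
    rw [e] at this; exact this
  · have := hσ2 j hj
    rw [show L + (j - L) = j by omega] at h5
    rw [h5] at this; exact this

include hF hω in
theorem four_trans (a : ℕ → Fin 6) : ∀ n ≤ 4, (∀ i < n, ∀ j < n, a i = a j → i = j) → ∃ σ ∈ permPart ω, ∀ i < n, σ (px i) = a i := by
  intro n
  induction n with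
  | zero => intro _ _; exact ⟨1, (permPart ω).one_mem, by simp⟩
  | succ n ih =>
    intro hn ha
    obtain ⟨σ, hσ, hσ2⟩ := ih (by omega) (fun i hi j hj => ha i (by omega) j (by omega))
    have hj := (σ⁻¹ (a n)).2
    set j := (σ⁻¹ (a n)).val with hjd
    have hje : px j = σ⁻¹ (a n) := px_self _
    have hσj : σ (px j) = a n := by rw [hje]; exact σ.apply_symm_apply _
    have hnj : n ≤ j := by
      by_contra hc
      have h1 := hσ2 j (by omega)
      rw [hσj] at h1
      have := ha n (by omega) j (by omega) h1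
      omega
    obtain ⟨t, ht, ht1, ht2⟩ := level hF hω (show n < 4 by omega) hj hnj
    refine ⟨σ * t, (permPart ω).mul_mem hσ ht, ?_⟩
    intro i hi
    show σ (t (px i)) = a i
    by_cases h : i < n
    · rw [ht1 i h, hσ2 i h]
    · have : i = n := by omega
      subst this
      rw [ht2, hσj]

include hF hω in
theorem swap_not : Equiv.swap (4 : Fin 6) 5 ∉ permPart ω := by
  rintro ⟨c, hc⟩
  obtain ⟨k, hk, hck⟩ := exists_sgn hF hω c
  have h1 := (tst_iff hF hω (σ := Equiv.swap (4 : Fin 6) 5) (ri := tr) (sg := sgn k) (by decide) hck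
    (fun i _ => sgn_lt k i)).1 hc
  have h2 := tr_data
  rw [List.all_eq_true] at h2
  have h3 := h2 k (List.mem_range.2 hk)
  rw [h1] at h3
  exact absurd h3 (by simp)

theorem fix4 {g : Equiv.Perm (Fin 6)} (h0 : g 0 = 0) (h1 : g 1 = 1) (h2 : g 2 = 2) (h3 : g 3 = 3) :
    g = 1 ∨ g = Equiv.swap (4 : Fin 6) 5 := by
  have h4 : g 4 = 4 ∨ g 4 = 5 := by
    have : ∀ x : Fin 6, x = 0 ∨ x = 1 ∨ x = 2 ∨ x = 3 ∨ x = 4 ∨ x = 5 := by decide
    rcases this (g 4) with h | h | h | h | h | h
    · rw [← h0] at h; exact absurd (g.injective h) (by decide)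
    · rw [← h1] at h; exact absurd (g.injective h) (by decide)
    · rw [← h2] at h; exact absurd (g.injective h) (by decide)
    · rw [← h3] at h; exact absurd (g.injective h) (by decide)
    · exact Or.inl h
    · exact Or.inr h
  have h5 : g 5 = 4 ∨ g 5 = 5 := by
    have : ∀ x : Fin 6, x = 0 ∨ x = 1 ∨ x = 2 ∨ x = 3 ∨ x = 4 ∨ x = 5 := by decide
    rcases this (g 5) with h | h | h | h | h | h
    · rw [← h0] at h; exact absurd (g.injective h) (by decide)
    · rw [← h1] at h; exact absurd (g.injective h) (by decide)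
    · rw [← h2] at h; exact absurd (g.injective h) (by decide)
    · rw [← h3] at h; exact absurd (g.injective h) (by decide)
    · exact Or.inl h
    · exact Or.inr h
  rcases h4 with h4 | h4
  · left
    have h5' : g 5 = 5 := by
      rcases h5 with h | h
      · exact absurd (g.injective (h.trans h4.symm)) (by decide)
      · exact h
    ext i
    fin_cases i <;> simp [h0, h1, h2, h3, h4, h5']
  · right
    have h5' : g 5 = 4 := by
      rcases h5 with h | h
      · exact h
      · exact absurd (g.injective (h.trans h4.symm)) (by decide)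
    ext i
    fin_cases i
    · simp [h0]; decide
    · simp [h1]; decide
    · simp [h2]; decide
    · simp [h3]; decide
    · simp [h4]
    · simp [h5']

include hF hω in
theorem permPart_eq : permPart ω = alternatingGroup (Fin 6) := by
  apply Equiv.Perm.eq_alternatingGroup_of_index_eq_two
  rw [Subgroup.index_eq_two_iff]
  refine ⟨Equiv.swap 4 5, fun b => ?_⟩
  have hsw := swap_not hF hω
  obtain ⟨s, hs, hs2⟩ := four_trans hF hω (fun i => b (px i)) 4 le_rfl (fun i hi j hj h => by
    have := congrArg Fin.val (b.injective h)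
    rwa [px_val (by omega), px_val (by omega)] at this)
  have hfix : ∀ i < 4, (s⁻¹ * b) (px i) = px i := by
    intro i hi
    show s⁻¹ (b (px i)) = px i
    rw [← hs2 i hi]
    exact s.symm_apply_apply _
  rcases fix4 (hfix 0 (by norm_num)) (hfix 1 (by norm_num)) (hfix 2 (by norm_num)) (hfix 3 (by norm_num)) with h | h
  · rw [inv_mul_eq_one] at h
    subst h
    right
    refine ⟨hs, fun h2 => hsw ?_⟩
    have := (permPart ω).mul_mem ((permPart ω).inv_mem hs) h2
    rwa [inv_mul_cancel_left] at this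
  · rw [inv_mul_eq_iff_eq_mul] at h
    left
    refine ⟨?_, fun h2 => hsw ?_⟩
    · rw [h, mul_assoc, Equiv.swap_mul_self, mul_one]; exact hs
    · have := (permPart ω).mul_mem ((permPart ω).inv_mem hs) h2
      rw [h, inv_mul_cancel_left] at this
      exact this

theorem Pres.surj {σ : Equiv.Perm (Fin 6)} {c : Fin 6 → Fˣ} (h : Pres ω σ c) {y : Fin 6 → F}
    (hy : y ∈ hexacode F ω) : ∃ x ∈ hexacode F ω, monomialMap σ c x = y := by
  have hinj : Function.Injective (fun x : hexacode F ω => (⟨monomialMap σ c x, h x x.2⟩ : hexacode F ω)) := by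
    intro x x' hxx
    have h1 : monomialMap σ c x = monomialMap σ c x' := congrArg Subtype.val hxx
    apply Subtype.ext
    ext p
    have h2 := congrFun h1 (σ p)
    rw [mono_apply, mono_apply, Equiv.symm_apply_apply] at h2
    exact (Units.mul_right_inj _).1 h2
  have hfin : Finite (hexacode F ω) := inferInstance
  obtain ⟨x, hx⟩ := (Finite.injective_iff_surjective.1 hinj) ⟨y, hy⟩
  exact ⟨x, x.2, congrArg Subtype.val hx⟩

include hF hω in
theorem ratio {σ : Equiv.Perm (Fin 6)} {c d : Fin 6 → Fˣ} (hc : Pres ω σ c) (hd : Pres ω σ d) :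
    ∃ u : Fˣ, d = fun p => u * c p := by
  have h1 : Pres ω 1 (fun p => d p * (c p)⁻¹) := by
    intro y hy
    obtain ⟨x, hx, rfl⟩ := hc.surj hy
    have : monomialMap 1 (fun p => d p * (c p)⁻¹) (monomialMap σ c x) = monomialMap σ d x := by
      ext i
      rw [mono_apply, mono_apply, mono_apply]
      have : (Equiv.symm (1 : Equiv.Perm (Fin 6))) i = i := rfl
      rw [this, ← mul_assoc, ← Units.val_mul, inv_mul_cancel_right]
    rw [this]
    exact hd x hx
  have h2 := sign_const hF hω h1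
  refine ⟨d 0 * (c 0)⁻¹, ?_⟩
  ext p
  rw [← h2 p 0, inv_mul_cancel_right]

theorem scal_pres {σ : Equiv.Perm (Fin 6)} {c : Fin 6 → Fˣ} (hc : Pres ω σ c) (u : Fˣ) : Pres ω σ (fun p => u * c p) := by
  intro x hx
  have : monomialMap σ (fun p => u * c p) x = (u : F) • monomialMap σ c x := by
    ext i
    rw [Pi.smul_apply, mono_apply, mono_apply, Units.val_mul, smul_eq_mul, mul_assoc]
  rw [this]
  exact Submodule.smul_mem _ _ (hc x hx)

include hF hω in
theorem card_mono : Nat.card {f : Equiv.Perm (Fin 6) × (Fin 6 → Fˣ) // Pres ω f.1 f.2} = 1080 := by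
  have hch : ∀ σ : permPart ω, ∃ c, Pres ω σ c := fun σ => σ.2
  choose C hC using hch
  let G : permPart ω × Fˣ → {f : Equiv.Perm (Fin 6) × (Fin 6 → Fˣ) // Pres ω f.1 f.2} := fun z =>
    ⟨(z.1, fun p => z.2 * C z.1 p), scal_pres (hC z.1) z.2⟩
  have hG : Function.Bijective G := by
    constructor
    · rintro ⟨σ, b⟩ ⟨τ, b'⟩ h
      have h1 := congrArg (fun z => z.1.1) h
      have h1' : (σ : Equiv.Perm (Fin 6)) = τ := h1
      have h1'' : σ = τ := Subtype.ext h1'
      subst h1''
      have h2 := congrArg (fun z => z.1.2 0) h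
      have h2' : b * C σ 0 = b' * C σ 0 := h2
      rw [mul_right_cancel h2']
    · rintro ⟨⟨σ, d⟩, h⟩
      have hσ : σ ∈ permPart ω := ⟨d, h⟩
      obtain ⟨u, e⟩ := ratio hF hω (hC ⟨σ, hσ⟩) (show Pres ω σ d from h)
      exact ⟨(⟨σ, hσ⟩, u), Subtype.ext (by show (σ, fun p => u * C ⟨σ, hσ⟩ p) = (σ, d); rw [e])⟩
  rw [← Nat.card_congr (Equiv.ofBijective G hG), Nat.card_prod, permPart_eq hF hω, Nat.card_units, Nat.card_eq_fintype_card (α := F), hF]
  have h6 : Nat.card (alternatingGroup (Fin 6)) = 360 := by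
    rw [nat_card_alternatingGroup, Nat.card_eq_fintype_card, Fintype.card_fin]; rfl
  rw [h6]

end Cfsg.Agent.Lib.Hex
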