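import Cfsg.Agent.Lib.Tern.Code
import Cfsg.Agent.Lib.Tern.GenData

/-!
The monomial group of the length-12 ternary code.
-/

set_option autoImplicit false

namespace Cfsg.Agent.Lib.Tern

open Cfsg Finset
open scoped Pointwise
open Cfsg.Agent.Lib.SmallSt
open Cfsg.Agent.Lib.Golay (pc)

/-- preservation of the code -/
def Pres (σ : Equiv.Perm ArrayPt) (c : ArrayPt → (ZMod 3)ˣ) : Prop := ∀ x ∈ ternaryGolayCode, monomialMap σ c x ∈ ternaryGolayCode

theorem mono_apply (σ : Equiv.Perm ArrayPt) (c : ArrayPt → (ZMod 3)ˣ) (x : ArrayPt → ZMod 3) (i : ArrayPt) :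
    monomialMap σ c x i = (c i : ZMod 3) * x (σ.symm i) := rfl

theorem units_cases (u : (ZMod 3)ˣ) : u = 1 ∨ u = -1 := by revert u; decide

theorem exists_hexad (p q : ArrayPt) : ∃ h ∈ hexads, p ∈ h ∧ q ∈ h := by
  obtain ⟨s, hs1, hs2, hs3⟩ := Finset.exists_subsuperset_card_eq (n := 5) (Finset.subset_univ ({p, q} : Finset ArrayPt))
    ((Finset.card_insert_le _ _).trans (by rw [Finset.card_singleton]; norm_num))
    (by rw [Finset.card_univ, card_pt]; norm_num)
  obtain ⟨b, ⟨hb, hsb⟩, _⟩ := hexads_steiner.2 s hs3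
  exact ⟨b, hb, hsb (hs1 (by simp)), hsb (hs1 (by simp))⟩

theorem weight_ge {x : ArrayPt → ZMod 3} (hx : x ∈ ternaryGolayCode) : (ternarySupport x).card = 0 ∨ 6 ≤ (ternarySupport x).card := by
  by_cases h0 : x = 0
  · left; subst h0; simp [ternarySupport]
  · right
    rcases weights.2.1 x hx h0 with h | h | h <;> omega

theorem sign_const {c : ArrayPt → (ZMod 3)ˣ} (h : Pres 1 c) : (∀ p, c p = 1) ∨ (∀ p, c p = -1) := by
  have key : ∀ p q, c p = c q := by
    intro p q
    obtain ⟨b, ⟨x, hx, rfl, h6⟩, hp, hq⟩ := exists_hexad p q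
    have hy := h x hx
    have h1 := Submodule.add_mem _ hx hy
    have h2 := Submodule.sub_mem _ hx hy
    have e1 : ternarySupport (x + monomialMap 1 c x) = (ternarySupport x).filter (fun i => c i = 1) := by
      ext i
      unfold ternarySupport
      rw [mem_filter, mem_filter, mem_filter, Pi.add_apply, mono_apply]
      have : (Equiv.symm (1 : Equiv.Perm ArrayPt)) i = i := rfl
      rw [this]
      have hc : ∀ (u : (ZMod 3)ˣ) (a : ZMod 3), a + (u : ZMod 3) * a ≠ 0 ↔ a ≠ 0 ∧ u = 1 := by decide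
      rw [hc]; tauto
    have e2 : ternarySupport (x - monomialMap 1 c x) = (ternarySupport x).filter (fun i => ¬ c i = 1) := by
      ext i
      unfold ternarySupport
      rw [mem_filter, mem_filter, mem_filter, Pi.sub_apply, mono_apply]
      have : (Equiv.symm (1 : Equiv.Perm ArrayPt)) i = i := rfl
      rw [this]
      have hc : ∀ (u : (ZMod 3)ˣ) (a : ZMod 3), a - (u : ZMod 3) * a ≠ 0 ↔ a ≠ 0 ∧ ¬ u = 1 := by decide
      rw [hc]; tauto
    have h3 := Finset.card_filter_add_card_filter_not (s := ternarySupport x) (fun i => c i = 1)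
    rw [h6] at h3
    have w1 := weight_ge h1
    have w2 := weight_ge h2
    rw [e1] at w1
    rw [e2] at w2
    rcases w1 with w1 | w1
    · rw [Finset.card_eq_zero, Finset.filter_eq_empty_iff] at w1
      have a1 := (units_cases (c p)).resolve_left (w1 hp)
      have a2 := (units_cases (c q)).resolve_left (w1 hq)
      rw [a1, a2]
    · have w3 : ((ternarySupport x).filter (fun i => ¬ c i = 1)).card = 0 := by omega
      rw [Finset.card_eq_zero, Finset.filter_eq_empty_iff] at w3
      have a1 := not_not.1 (w3 hp)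
      have a2 := not_not.1 (w3 hq)
      rw [a1, a2]
  rcases units_cases (c (0, 0)) with h0 | h0
  · left; intro p; rw [key p (0, 0), h0]
  · right; intro p; rw [key p (0, 0), h0]

theorem mono_comp (σ τ : Equiv.Perm ArrayPt) (c d : ArrayPt → (ZMod 3)ˣ) (x : ArrayPt → ZMod 3) :
    monomialMap σ c (monomialMap τ d x) = monomialMap (σ * τ) (fun i => c i * d (σ.symm i)) x := by
  ext i
  rw [mono_apply, mono_apply, mono_apply, Units.val_mul, mul_assoc]
  rfl

theorem Pres.comp {σ τ : Equiv.Perm ArrayPt} {c d : ArrayPt → (ZMod 3)ˣ} (h1 : Pres σ c) (h2 : Pres τ d) :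
    Pres (σ * τ) (fun i => c i * d (σ.symm i)) := by
  intro x hx
  rw [← mono_comp]
  exact h1 _ (h2 x hx)

theorem pres_one : Pres 1 1 := by
  intro x hx
  have : monomialMap 1 1 x = x := by
    ext i
    rw [mono_apply]
    show ((1 : (ZMod 3)ˣ) : ZMod 3) * x i = x i
    rw [Units.val_one, one_mul]
  rw [this]; exact hx

/-- the group of permutation parts -/
def permPart : Subgroup (Equiv.Perm ArrayPt) where
  carrier := {σ | ∃ c, Pres σ c}
  one_mem' := ⟨1, pres_one⟩
  mul_mem' := by
    rintro σ τ ⟨c, hc⟩ ⟨d, hd⟩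
    exact ⟨_, hc.comp hd⟩
  inv_mem' := by
    rintro σ ⟨c, hc⟩
    have h : ∀ n : ℕ, ∃ d, Pres (σ ^ n) d := by
      intro n
      induction n with
      | zero => exact ⟨1, by rw [pow_zero]; exact pres_one⟩
      | succ n ih =>
        obtain ⟨d, hd⟩ := ih
        exact ⟨_, by rw [pow_succ]; exact hd.comp hc⟩
    obtain ⟨d, hd⟩ := h (orderOf σ - 1)
    refine ⟨d, ?_⟩
    have h1 : σ ^ (orderOf σ - 1) = σ⁻¹ := by
      rw [eq_inv_iff_mul_eq_one, ← pow_succ, Nat.sub_add_cancel (orderOf_pos σ), pow_orderOf_eq_one]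
    rw [← h1]; exact hd

theorem mem_permPart {σ : Equiv.Perm ArrayPt} : σ ∈ permPart ↔ ∃ c, Pres σ c := Iff.rfl

theorem supp_mono (σ : Equiv.Perm ArrayPt) (c : ArrayPt → (ZMod 3)ˣ) (x : ArrayPt → ZMod 3) :
    ternarySupport (monomialMap σ c x) = σ • ternarySupport x := by
  ext i
  unfold ternarySupport
  have h1 : i ∈ σ • (Finset.univ.filter fun a => x a ≠ 0) ↔ x (σ.symm i) ≠ 0 := by
    rw [Finset.mem_smul_finset]
    constructor
    · rintro ⟨j, hj, rfl⟩
      rw [mem_filter] at hj
      have : σ.symm (σ • j) = j := σ.symm_apply_apply j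
      rw [this]; exact hj.2
    · intro h
      exact ⟨σ.symm i, mem_filter.2 ⟨mem_univ _, h⟩, σ.apply_symm_apply i⟩
  rw [h1, mem_filter, mono_apply]
  have : ∀ (u : (ZMod 3)ˣ) (a : ZMod 3), (u : ZMod 3) * a ≠ 0 ↔ a ≠ 0 := by decide
  rw [this]
  exact ⟨fun h => h.2, fun h => ⟨mem_univ _, h⟩⟩

theorem permPart_le : permPart ≤ setSystemAut hexads := by
  rintro σ ⟨c, hc⟩
  rw [SmallSt.mem_aut]
  rintro _ ⟨x, hx, rfl, h6⟩
  exact ⟨monomialMap σ c x, hc x hx, supp_mono σ c x, by rw [Finset.card_smul_finset]; exact h6⟩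

/-- check of one monomial element -/
def monOK (e : List ℕ × List ℕ) : Bool :=
  (List.range 12).all (fun i => Nat.blt (e.1.getD i 0) 12 && (e.2.getD i 0 == 1 || e.2.getD i 0 == 2) &&
    (List.range i).all (fun j => e.1.getD j 0 != e.1.getD i 0)) &&
  (List.range 6).all (fun k => inT (fun i => (e.2.getD i 0 * rowd k (e.1.getD i 0))))

theorem exists_mon {e : List ℕ × List ℕ} (he : monOK e = true) : ∃ σ ∈ permPart, ∀ i < 12, σ (px (e.1.getD i 0)) = px i := by
  unfold monOK at he
  rw [Bool.and_eq_true, List.all_eq_true, List.all_eq_true] at he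
  obtain ⟨h1, h2⟩ := he
  have hr : ∀ i < 12, e.1.getD i 0 < 12 := by
    intro i hi
    have := h1 i (List.mem_range.2 hi)
    rw [Bool.and_eq_true, Bool.and_eq_true] at this
    simpa [Nat.blt_eq] using this.1.1
  have hs : ∀ i < 12, e.2.getD i 0 = 1 ∨ e.2.getD i 0 = 2 := by
    intro i hi
    have := h1 i (List.mem_range.2 hi)
    rw [Bool.and_eq_true, Bool.and_eq_true, Bool.or_eq_true, beq_iff_eq, beq_iff_eq] at this
    exact this.1.2
  have hinj : ∀ i < 12, ∀ j < i, e.1.getD j 0 ≠ e.1.getD i 0 := by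
    intro i hi j hj
    have := h1 i (List.mem_range.2 hi)
    rw [Bool.and_eq_true, List.all_eq_true] at this
    have := this.2 j (List.mem_range.2 hj)
    simpa using this
  have hf : Function.Injective (fun p : ArrayPt => px (e.1.getD (ix p) 0)) := by
    intro p q hpq
    have h3 := px_inj _ (hr _ (ix_lt p)) _ (hr _ (ix_lt q)) hpq
    rw [← px_ix p, ← px_ix q]
    congr 1
    rcases Nat.lt_trichotomy (ix p) (ix q) with h | h | h
    · exact absurd h3 (hinj _ (ix_lt q) _ h)
    · exact h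
    · exact absurd h3.symm (hinj _ (ix_lt p) _ h)
  set τ : Equiv.Perm ArrayPt := Equiv.ofBijective _ (Finite.injective_iff_bijective.1 hf) with hτ
  have hτ1 : ∀ p, τ p = px (e.1.getD (ix p) 0) := fun _ => rfl
  have hτi : ∀ p, ix (τ p) = e.1.getD (ix p) 0 := by
    intro p; rw [hτ1, ix_px _ (hr _ (ix_lt p))]
  refine ⟨τ.symm, ⟨fun p => if e.2.getD (ix p) 0 = 1 then 1 else -1, ?_⟩, ?_⟩
  · set c : ArrayPt → (ZMod 3)ˣ := fun p => if e.2.getD (ix p) 0 = 1 then 1 else -1 with hc
    have hcv : ∀ p, (c p : ZMod 3) = ((e.2.getD (ix p) 0 : ℕ) : ZMod 3) := by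
      intro p
      rcases hs _ (ix_lt p) with h | h
      · simp only [hc, h, if_true]; rfl
      · simp only [hc, h]; rfl
    have hrow : ∀ k < 6, monomialMap τ.symm c (wd (rowd k)) ∈ ternaryGolayCode := by
      intro k hk
      have h3 := (inT_iff _).2 (h2 k (List.mem_range.2 hk))
      have : monomialMap τ.symm c (wd (rowd k)) = wd (fun i => (e.2.getD i 0 * rowd k (e.1.getD i 0))) := by
        ext p
        rw [mono_apply, Equiv.symm_symm]
        unfold wd
        rw [hτi, hcv]
        push_cast; rfl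
      rw [this]; exact h3
    intro x hx
    obtain ⟨n, hn, rfl⟩ := mem_iff.1 hx
    rw [W_eq hn]
    have hlin : monomialMap τ.symm c ((dig3 n 0 : ZMod 3) • wd (rowd 0) + (dig3 n 1 : ZMod 3) • wd (rowd 1) +
      (dig3 n 2 : ZMod 3) • wd (rowd 2) + (dig3 n 3 : ZMod 3) • wd (rowd 3) + (dig3 n 4 : ZMod 3) • wd (rowd 4) +
      (dig3 n 5 : ZMod 3) • wd (rowd 5)) = (dig3 n 0 : ZMod 3) • monomialMap τ.symm c (wd (rowd 0)) +
      (dig3 n 1 : ZMod 3) • monomialMap τ.symm c (wd (rowd 1)) + (dig3 n 2 : ZMod 3) • monomialMap τ.symm c (wd (rowd 2)) +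
      (dig3 n 3 : ZMod 3) • monomialMap τ.symm c (wd (rowd 3)) + (dig3 n 4 : ZMod 3) • monomialMap τ.symm c (wd (rowd 4)) +
      (dig3 n 5 : ZMod 3) • monomialMap τ.symm c (wd (rowd 5)) := by
      ext i
      simp only [mono_apply, Pi.add_apply, Pi.smul_apply, smul_eq_mul]
      ring
    rw [hlin]
    have hm : ∀ k < 6, ∀ a : ZMod 3, a • monomialMap τ.symm c (wd (rowd k)) ∈ ternaryGolayCode := fun k hk a =>
      Submodule.smul_mem _ a (hrow k hk)
    exact Submodule.add_mem _ (Submodule.add_mem _ (Submodule.add_mem _ (Submodule.add_mem _ (Submodule.add_mem _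
      (hm 0 (by norm_num) _) (hm 1 (by norm_num) _)) (hm 2 (by norm_num) _)) (hm 3 (by norm_num) _))
      (hm 4 (by norm_num) _)) (hm 5 (by norm_num) _)
  · intro i hi
    have : px (e.1.getD i 0) = τ (px i) := by rw [hτ1, ix_px i hi]
    rw [this, Equiv.symm_apply_apply]

/-- check of the transversals -/
def levOK (L : ℕ) (l : List (List ℕ × List ℕ)) : Bool :=
  l.all monOK && (List.range (12 - L)).all (fun j =>
    (l.getD j ([], [])).1.getD (L + j) 0 == L && (List.range L).all (fun i => (l.getD j ([], [])).1.getD i 0 == i) && Nat.blt j l.length)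

theorem mon_data : (List.range 5).all (fun L => levOK L (monT.getD L [])) = true := by decide +kernel

theorem level {L : ℕ} (hL : L < 5) {j : ℕ} (hj : j < 12) (hLj : L ≤ j) : ∃ σ ∈ permPart, (∀ i < L, σ (px i) = px i) ∧
    σ (px L) = px j := by
  have h := mon_data
  rw [List.all_eq_true] at h
  have h1 := h L (List.mem_range.2 hL)
  unfold levOK at h1
  rw [Bool.and_eq_true, List.all_eq_true, List.all_eq_true] at h1
  obtain ⟨h2, h3⟩ := h1
  have h4 := h3 (j - L) (List.mem_range.2 (by omega))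
  rw [Bool.and_eq_true, Bool.and_eq_true, List.all_eq_true, beq_iff_eq] at h4
  obtain ⟨⟨h5, h6⟩, h7⟩ := h4
  have h7' : j - L < (monT.getD L []).length := by simpa [Nat.blt_eq] using h7
  have hmem : (monT.getD L []).getD (j - L) ([], []) ∈ monT.getD L [] := by
    rw [List.getD_eq_getElem _ _ h7']; exact List.getElem_mem h7'
  obtain ⟨σ, hσ, hσ2⟩ := exists_mon (h2 _ hmem)
  refine ⟨σ, hσ, ?_, ?_⟩
  · intro i hi
    have := hσ2 i (by omega)
    have e := h6 i (List.mem_range.2 hi)
    rw [beq_iff_eq] at e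
    rw [e] at this; exact this
  · have := hσ2 j hj
    rw [show L + (j - L) = j by omega] at h5
    rw [h5] at this; exact this

theorem five_trans (a : ℕ → ArrayPt) : ∀ n ≤ 5, (∀ i < n, ∀ j < n, a i = a j → i = j) → ∃ σ ∈ permPart, ∀ i < n, σ (px i) = a i := by
  intro n
  induction n with
  | zero => intro _ _; exact ⟨1, permPart.one_mem, by simp⟩
  | succ n ih =>
    intro hn ha
    obtain ⟨σ, hσ, hσ2⟩ := ih (by omega) (fun i hi j hj => ha i (by omega) j (by omega))
    obtain ⟨j, hj, hje⟩ := surj_of_inj (v := 12) card_pt px_inj (σ⁻¹ (a n))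
    have hσj : σ (px j) = a n := by rw [hje]; exact σ.apply_symm_apply _
    have hnj : n ≤ j := by
      by_contra hc
      have h1 := hσ2 j (by omega)
      rw [hσj] at h1
      have := ha n (by omega) j (by omega) h1
      omega
    obtain ⟨t, ht, ht1, ht2⟩ := level (show n < 5 by omega) hj hnj
    refine ⟨σ * t, permPart.mul_mem hσ ht, ?_⟩
    intro i hi
    show σ (t (px i)) = a i
    by_cases h : i < n
    · rw [ht1 i h, hσ2 i h]
    · have : i = n := by omega
      subst this
      rw [ht2, hσj]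

theorem permPart_eq : permPart = setSystemAut hexads := by
  apply le_antisymm permPart_le
  intro g hg
  obtain ⟨σ, hσ, hσ2⟩ := five_trans (fun i => g (px i)) 5 le_rfl (fun i hi j hj h =>
    px_inj i (by omega) j (by omega) (g.injective h))
  let x : Fin 5 ↪ ArrayPt := ⟨fun i => px i, fun i j h => Fin.ext (px_inj i (by omega) j (by omega) h)⟩
  have h1 : σ⁻¹ * g = 1 := by
    apply rigid_aut cert12 card_pt hexads_steiner x ((setSystemAut hexads).mul_mem ((setSystemAut hexads).inv_mem (permPart_le hσ)) hg)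
    intro i
    show σ⁻¹ (g (px i)) = px i
    rw [← hσ2 i i.2]
    exact σ.symm_apply_apply _
  rw [inv_mul_eq_one] at h1
  rw [← h1]; exact hσ

theorem Pres.surj {σ : Equiv.Perm ArrayPt} {c : ArrayPt → (ZMod 3)ˣ} (h : Pres σ c) {y : ArrayPt → ZMod 3}
    (hy : y ∈ ternaryGolayCode) : ∃ x ∈ ternaryGolayCode, monomialMap σ c x = y := by
  have hinj : Function.Injective (fun x : ternaryGolayCode => (⟨monomialMap σ c x, h x x.2⟩ : ternaryGolayCode)) := by
    intro x x' hxx
    have h1 : monomialMap σ c x = monomialMap σ c x' := congrArg Subtype.val hxx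
    apply Subtype.ext
    ext p
    have h2 := congrFun h1 (σ p)
    rw [mono_apply, mono_apply, Equiv.symm_apply_apply] at h2
    exact (Units.mul_right_inj _).1 h2
  have hfin : Finite ternaryGolayCode := inferInstance
  obtain ⟨x, hx⟩ := (Finite.injective_iff_surjective.1 hinj) ⟨y, hy⟩
  exact ⟨x, x.2, congrArg Subtype.val hx⟩

theorem ratio {σ : Equiv.Perm ArrayPt} {c d : ArrayPt → (ZMod 3)ˣ} (hc : Pres σ c) (hd : Pres σ d) :
    d = c ∨ d = fun p => -c p := by
  have h1 : Pres 1 (fun p => d p * (c p)⁻¹) := by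
    intro y hy
    obtain ⟨x, hx, rfl⟩ := hc.surj hy
    have : monomialMap 1 (fun p => d p * (c p)⁻¹) (monomialMap σ c x) = monomialMap σ d x := by
      ext i
      rw [mono_apply, mono_apply, mono_apply]
      have : (Equiv.symm (1 : Equiv.Perm ArrayPt)) i = i := rfl
      rw [this, ← mul_assoc, ← Units.val_mul, inv_mul_cancel_right]
    rw [this]
    exact hd x hx
  rcases sign_const h1 with h | h
  · left; ext p
    have := h p
    rw [mul_inv_eq_one] at this
    rw [this]
  · right; ext p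
    have := h p
    rw [mul_inv_eq_iff_eq_mul] at this
    rw [this, neg_one_mul]

theorem neg_pres {σ : Equiv.Perm ArrayPt} {c : ArrayPt → (ZMod 3)ˣ} (hc : Pres σ c) : Pres σ (fun p => -c p) := by
  intro x hx
  have : monomialMap σ (fun p => -c p) x = -monomialMap σ c x := by
    ext i
    rw [Pi.neg_apply, mono_apply, mono_apply, Units.val_neg, neg_mul]
  rw [this]
  exact Submodule.neg_mem _ (hc x hx)

theorem card_mono : Nat.card {f : Equiv.Perm ArrayPt × (ArrayPt → (ZMod 3)ˣ) // Pres f.1 f.2} = 190080 := by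
  have hch : ∀ σ : permPart, ∃ c, Pres σ c := fun σ => σ.2
  choose C hC using hch
  let F : permPart × Bool → {f : Equiv.Perm ArrayPt × (ArrayPt → (ZMod 3)ˣ) // Pres f.1 f.2} := fun z =>
    ⟨(z.1, if z.2 then C z.1 else fun p => -C z.1 p), by
      by_cases h : z.2 = true
      · simp only [h, if_true]; exact hC z.1
      · simp only [h]; exact neg_pres (hC z.1)⟩
  have hF : Function.Bijective F := by
    constructor
    · rintro ⟨σ, b⟩ ⟨τ, b'⟩ h
      have h1 := congrArg (fun z => z.1.1) h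
      have h1' : (σ : Equiv.Perm ArrayPt) = τ := h1
      have h1'' : σ = τ := Subtype.ext h1'
      subst h1''
      have h2 := congrArg (fun z => z.1.2 (0, 0)) h
      have h2' : (if b then C σ else fun p => -C σ p) (0, 0) = (if b' then C σ else fun p => -C σ p) (0, 0) := h2
      have hne : ∀ u : (ZMod 3)ˣ, u ≠ -u := by decide
      cases b <;> cases b'
      · rfl
      · exact absurd h2'.symm (hne _)
      · exact absurd h2' (hne _)
      · rfl
    · rintro ⟨⟨σ, d⟩, h⟩
      have hσ : σ ∈ permPart := ⟨d, h⟩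
      rcases ratio (hC ⟨σ, hσ⟩) (show Pres σ d from h) with e | e
      · exact ⟨(⟨σ, hσ⟩, true), Subtype.ext (by show (σ, C ⟨σ, hσ⟩) = (σ, d); rw [← e])⟩
      · exact ⟨(⟨σ, hσ⟩, false), Subtype.ext (by show (σ, fun p => -C ⟨σ, hσ⟩ p) = (σ, d); rw [e])⟩
  rw [← Nat.card_congr (Equiv.ofBijective F hF), Nat.card_prod, permPart_eq, card_aut cert12 card_pt hexads_steiner,
    Nat.card_eq_fintype_card]
  rfl

end Cfsg.Agent.Lib.Tern
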